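import Mathlib

/-!
# Elementary abelian groups of order `p²` inside a group
-/

set_option autoImplicit false
set_option linter.unusedSectionVars false
set_option linter.deprecated false

namespace Cfsg.Agent.Lib.Ward

open Subgroup

variable {G : Type*} [Group G] {A : Subgroup G} {p : ℕ}

theorem comm_of_card (hp : p.Prime) (hcard : Nat.card A = p ^ 2) {x y : G} (hx : x ∈ A)
    (hy : y ∈ A) : x * y = y * x := by
  haveI : Fact p.Prime := ⟨hp⟩
  have := congrArg Subtype.val (IsPGroup.commutative_of_card_eq_prime_sq hcard ⟨x, hx⟩ ⟨y, hy⟩)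
  exact this

/-- An element `c ≠ 1` of prime order lies in the cyclic group generated by any non-trivial
element of that group. -/
theorem mem_zpowers_of_mem_zpowers {c e : G} (hp : p.Prime) (hc : c ^ p = 1) (hc1 : c ≠ 1)
    (he : e ∈ zpowers c) (he1 : e ≠ 1) : c ∈ zpowers e := by
  haveI : Fact p.Prime := ⟨hp⟩
  obtain ⟨i, rfl⟩ := mem_zpowers_iff.mp he
  have hord : orderOf c = p := orderOf_eq_prime hc hc1
  have hcop : IsCoprime i (p : ℤ) := by
    have h1 : ¬ (p : ℤ) ∣ i := by
      intro h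
      apply he1
      rw [← hord] at h
      exact orderOf_dvd_iff_zpow_eq_one.mp h
    have h2 : Prime (p : ℤ) := Nat.prime_iff_prime_int.mp hp
    exact (h2.coprime_iff_not_dvd.mpr h1).symm
  obtain ⟨u, v, huv⟩ := hcop
  refine mem_zpowers_iff.mpr ⟨u, ?_⟩
  have h3 : c ^ (v * (p : ℤ)) = 1 := by
    rw [mul_comm, zpow_mul, zpow_natCast, hc, one_zpow]
  rw [← zpow_mul]
  have h4 : i * u = 1 - v * p := by linarith
  rw [h4, zpow_sub, h3, inv_one, mul_one, zpow_one]

/-- If `x` commutes with a non-trivial element of `⟨c⟩`, it commutes with `c`. -/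
theorem comm_of_comm_mem_zpowers {c e x : G} (hp : p.Prime) (hc : c ^ p = 1) (hc1 : c ≠ 1)
    (he : e ∈ zpowers c) (he1 : e ≠ 1) (hx : e * x = x * e) : c * x = x * c := by
  obtain ⟨k, rfl⟩ := mem_zpowers_iff.mp (mem_zpowers_of_mem_zpowers hp hc hc1 he he1)
  exact (Commute.zpow_left hx k)

theorem ne_one_of_not_mem_zpowers {c d : G} (hd : d ∉ zpowers c) : d ≠ 1 := by
  rintro rfl
  exact hd (one_mem _)

/-- Independence is symmetric. -/
theorem not_mem_zpowers_symm (hp : p.Prime) (hexp : ∀ x ∈ A, x ^ p = 1) {c d : G}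
    (hd : d ∈ A) (hc1 : c ≠ 1) (hdc : d ∉ zpowers c) : c ∉ zpowers d := by
  intro h
  exact hdc (mem_zpowers_of_mem_zpowers hp (hexp d hd) (ne_one_of_not_mem_zpowers hdc) h hc1)

/-- Any element is a product of powers of two independent elements. -/
theorem exists_pow_mul_pow [Finite A] (hp : p.Prime) (hcard : Nat.card A = p ^ 2)
    (hexp : ∀ x ∈ A, x ^ p = 1)
    {c d : G} (hc : c ∈ A) (hc1 : c ≠ 1) (hd : d ∈ A) (hdc : d ∉ zpowers c) :
    ∀ a ∈ A, ∃ u v : ℕ, a = c ^ u * d ^ v := by
  haveI : Fact p.Prime := ⟨hp⟩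
  set H : Subgroup G := closure ({c, d} : Set G) with hH
  have hHA : H ≤ A := by
    rw [hH, closure_le]
    rintro x (rfl | rfl)
    · exact hc
    · exact hd
  have hcH : c ∈ H := subset_closure (Or.inl rfl)
  have hdH : d ∈ H := subset_closure (Or.inr rfl)
  have hzc : zpowers c ≤ H := by rwa [zpowers_le]
  have hfinH : Finite H := Finite.of_injective (Subgroup.inclusion hHA) (Subgroup.inclusion_injective hHA)
  have hord : orderOf c = p := orderOf_eq_prime (hexp c hc) hc1
  have hcardz : Nat.card (zpowers c) = p := by rw [Nat.card_zpowers, hord]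
  have hdvd : Nat.card H ∣ p ^ 2 := by
    rw [← hcard]
    exact Subgroup.card_dvd_of_le hHA
  have hlt : p < Nat.card H := by
    rw [← hcardz]
    have hlt' : zpowers c < H := lt_of_le_of_ne hzc (by
      intro h
      apply hdc
      rw [h]
      exact hdH)
    have h := Set.ncard_lt_ncard (s := ((zpowers c : Subgroup G) : Set G)) (t := ((H : Subgroup G) : Set G))
      (SetLike.coe_ssubset_coe.mpr hlt') (Set.toFinite _)
    rw [← Nat.card_coe_set_eq, ← Nat.card_coe_set_eq] at h
    exact h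
  have hcH2 : Nat.card H = p ^ 2 := by
    obtain ⟨k, hk, hk'⟩ := (Nat.dvd_prime_pow hp).mp hdvd
    rw [hk'] at hlt ⊢
    have hk2 : k = 2 := by
      interval_cases k
      · simp at hlt
        exact absurd hlt (by have := hp.two_le; omega)
      · simp at hlt
      · rfl
    rw [hk2]
  have hHeq : H = A := Subgroup.eq_of_le_of_card_ge hHA (by rw [hcH2, hcard])
  have hcomm : Commute c d := comm_of_card hp hcard hc hd
  intro a ha
  rw [← hHeq] at ha
  induction ha using closure_induction with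
  | mem x hx =>
    rcases hx with rfl | rfl
    · exact ⟨1, 0, by simp⟩
    · exact ⟨0, 1, by simp⟩
  | one => exact ⟨0, 0, by simp⟩
  | mul x y _ _ hx hy =>
    obtain ⟨u, v, rfl⟩ := hx
    obtain ⟨u', v', rfl⟩ := hy
    refine ⟨u + u', v + v', ?_⟩
    rw [pow_add, pow_add]
    have : d ^ v * c ^ u' = c ^ u' * d ^ v := ((hcomm.pow_pow u' v).eq).symm
    calc c ^ u * d ^ v * (c ^ u' * d ^ v') = c ^ u * (d ^ v * c ^ u') * d ^ v' := by group
      _ = c ^ u * (c ^ u' * d ^ v) * d ^ v' := by rw [this]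
      _ = _ := by group
  | inv x _ hx =>
    obtain ⟨u, v, rfl⟩ := hx
    have hcp : c ^ p = 1 := hexp c hc
    have hdp : d ^ p = 1 := hexp d hd
    refine ⟨u * (p - 1), v * (p - 1), ?_⟩
    rw [inv_eq_iff_mul_eq_one]
    have hc2 : c ^ u * c ^ (u * (p - 1)) = 1 := by
      rw [← pow_add]
      have : u + u * (p - 1) = u * p := by
        have := hp.one_lt
        obtain ⟨k, rfl⟩ : ∃ k, p = k + 1 := ⟨p - 1, by omega⟩
        simp; ring
      rw [this, pow_mul', hcp, one_pow]
    have hd2 : d ^ v * d ^ (v * (p - 1)) = 1 := by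
      rw [← pow_add]
      have : v + v * (p - 1) = v * p := by
        have := hp.one_lt
        obtain ⟨k, rfl⟩ : ∃ k, p = k + 1 := ⟨p - 1, by omega⟩
        simp; ring
      rw [this, pow_mul', hdp, one_pow]
    have : d ^ v * c ^ (u * (p - 1)) = c ^ (u * (p - 1)) * d ^ v := ((hcomm.pow_pow _ v).eq).symm
    calc c ^ u * d ^ v * (c ^ (u * (p - 1)) * d ^ (v * (p - 1)))
        = c ^ u * (d ^ v * c ^ (u * (p - 1))) * d ^ (v * (p - 1)) := by group
      _ = (c ^ u * c ^ (u * (p - 1))) * (d ^ v * d ^ (v * (p - 1))) := by rw [this]; group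
      _ = 1 := by rw [hc2, hd2, one_mul]

/-- An element commuting with two independent elements commutes with the whole group. -/
theorem comm_of_comm_indep [Finite A] (hp : p.Prime) (hcard : Nat.card A = p ^ 2)
    (hexp : ∀ x ∈ A, x ^ p = 1)
    {c d x : G} (hc : c ∈ A) (hc1 : c ≠ 1) (hd : d ∈ A) (hdc : d ∉ zpowers c)
    (hxc : c * x = x * c) (hxd : d * x = x * d) : ∀ a ∈ A, a * x = x * a := by
  intro a ha
  obtain ⟨u, v, rfl⟩ := exists_pow_mul_pow hp hcard hexp hc hc1 hd hdc a ha
  have h1 : Commute (c ^ u) x := Commute.pow_left hxc u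
  have h2 : Commute (d ^ v) x := Commute.pow_left hxd v
  exact (h1.mul_left h2).eq

end Cfsg.Agent.Lib.Ward
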