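import Mathlib

/-!
# An operator identity for a Frobenius-type action

`K` a finite subgroup, normalised by `c` with `c^n = 1`, with `C_K(c^i) = 1` for `0 < i < n`.
If `1 + c + … + c^(n-1)` vanishes on a `K`-invariant subgroup `U` of a module on which `|K|`
is injective, then `K` acts trivially on `U`.
-/

set_option autoImplicit false
set_option linter.unusedSectionVars false

namespace Cfsg.Agent.Lib.Ward

variable {G : Type*} [Group G] {V : Type*} [AddCommGroup V] (ρ : G →* AddMonoid.End V)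

theorem rho_mul (x y : G) (v : V) : ρ (x * y) v = ρ x (ρ y v) := by
  rw [map_mul]; rfl

theorem rho_one (v : V) : ρ 1 v = v := by
  rw [map_one]; rfl

theorem rho_inv_left (x : G) (v : V) : ρ x⁻¹ (ρ x v) = v := by
  rw [← rho_mul, inv_mul_cancel, rho_one]

theorem rho_inv_right (x : G) (v : V) : ρ x (ρ x⁻¹ v) = v := by
  rw [← rho_mul, mul_inv_cancel, rho_one]

theorem rho_sum {ι : Type*} (s : Finset ι) (x : G) (f : ι → V) :
    ρ x (∑ i ∈ s, f i) = ∑ i ∈ s, ρ x (f i) := map_sum (ρ x) f s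

/-- The Frobenius lemma. -/
theorem frob_trivial (K : Subgroup G) [Finite K] (c : G) (n : ℕ) (hn : 0 < n) (hcn : c ^ n = 1)
    (hcK : ∀ k ∈ K, c * k * c⁻¹ ∈ K)
    (hfree : ∀ i, 0 < i → i < n → ∀ k ∈ K, c ^ i * k * (c ^ i)⁻¹ = k → k = 1)
    (U : AddSubgroup V) (hUK : ∀ k ∈ K, ∀ u ∈ U, ρ k u ∈ U)
    (hN : ∀ u ∈ U, ∑ i ∈ Finset.range n, ρ (c ^ i) u = 0)
    (hcard : ∀ u ∈ U, Nat.card K • u = 0 → u = 0) :
    ∀ k ∈ K, ∀ u ∈ U, ρ k u = u := by
  classical
  haveI := Fintype.ofFinite K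
  obtain ⟨m, rfl⟩ : ∃ m, n = m + 1 := ⟨n - 1, by omega⟩
  have hpow : ∀ j : ℕ, ∀ k ∈ K, c ^ j * k * (c ^ j)⁻¹ ∈ K := by
    intro j
    induction j with
    | zero => intro k hk; simpa using hk
    | succ j ih =>
      intro k hk
      have h1 := hcK _ (ih k hk)
      have h2 : c ^ (j + 1) * k * (c ^ (j + 1))⁻¹ = c * (c ^ j * k * (c ^ j)⁻¹) * c⁻¹ := by
        rw [pow_succ']; group
      rw [h2]
      exact h1
  -- the sum over `K`
  let S : V → V := fun v => ∑ z : K, ρ z v
  have hSU : ∀ u ∈ U, S u ∈ U := fun u hu =>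
    AddSubgroup.sum_mem _ (fun z _ => hUK z z.2 u hu)
  have hSk : ∀ k ∈ K, ∀ v, ρ k (S v) = S v := by
    intro k hk v
    change ρ k (∑ z : K, ρ z v) = ∑ z : K, ρ z v
    rw [rho_sum]
    have hb : Function.Bijective (fun z : K => (⟨k, hk⟩ : K) * z) :=
      (Group.mulLeft_bijective _)
    rw [← hb.sum_comp (fun z : K => ρ (z : G) v)]
    refine Finset.sum_congr rfl fun z _ => ?_
    change ρ k (ρ z v) = ρ (k * z) v
    rw [rho_mul]
  -- the main computation
  have hmain : ∀ u ∈ U, S u = Nat.card K • u := by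
    intro u hu
    have h0 : ∑ z : K, ρ z (∑ i ∈ Finset.range (m + 1), ρ (c ^ i) (ρ (z : G)⁻¹ u)) = 0 := by
      apply Finset.sum_eq_zero
      intro z _
      rw [hN _ (hUK _ (inv_mem z.2) u hu), map_zero]
    have h1 : ∀ z : K, ρ z (∑ i ∈ Finset.range (m + 1), ρ (c ^ i) (ρ (z : G)⁻¹ u)) =
        ∑ i ∈ Finset.range (m + 1), ρ ((z : G) * c ^ i * (z : G)⁻¹) u := by
      intro z
      rw [rho_sum]
      refine Finset.sum_congr rfl fun i _ => ?_
      rw [rho_mul, rho_mul]
    simp only [h1] at h0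
    rw [Finset.sum_comm] at h0
    rw [Finset.sum_range_succ'] at h0
    have h2 : ∑ z : K, ρ ((z : G) * c ^ 0 * (z : G)⁻¹) u = Nat.card K • u := by
      simp [rho_one, Nat.card_eq_fintype_card]
    rw [h2] at h0
    have h3 : ∀ i ∈ Finset.range m, ∑ z : K, ρ ((z : G) * c ^ (i + 1) * (z : G)⁻¹) u =
        ρ (c ^ (i + 1)) (S u) := by
      intro i hi
      have hi' : i + 1 < m + 1 := by
        have := Finset.mem_range.mp hi
        omega
      set e := c ^ (i + 1) with he
      have hinv : e⁻¹ = c ^ ((i + 1) * m) := by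
        rw [inv_eq_iff_mul_eq_one, he, ← pow_add]
        have : i + 1 + (i + 1) * m = (m + 1) * (i + 1) := by ring
        rw [this, pow_mul, hcn, one_pow]
      have hφmem : ∀ z : K, e⁻¹ * (z : G) * e * (z : G)⁻¹ ∈ K := by
        intro z
        have h4 := hpow ((i + 1) * m) z z.2
        rw [← hinv, inv_inv] at h4
        exact mul_mem h4 (inv_mem z.2)
      let φ : K → K := fun z => ⟨e⁻¹ * (z : G) * e * (z : G)⁻¹, hφmem z⟩
      have hφinj : Function.Injective φ := by
        intro z w hzw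
        have h4 : e⁻¹ * (z : G) * e * (z : G)⁻¹ = e⁻¹ * (w : G) * e * (w : G)⁻¹ :=
          congrArg Subtype.val hzw
        have h5 : e * ((w : G)⁻¹ * z) * e⁻¹ = (w : G)⁻¹ * z := by
          have h6 : (z : G) * e * (z : G)⁻¹ = (w : G) * e * (w : G)⁻¹ := by
            have := congrArg (fun x => e * x) h4
            simpa [mul_assoc] using this
          have h7 : ((w : G)⁻¹ * z) * e = e * ((w : G)⁻¹ * z) := by
            have h8 : (z : G) * e = (w : G) * e * (w : G)⁻¹ * z := by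
              rw [← h6]; group
            calc ((w : G)⁻¹ * z) * e = (w : G)⁻¹ * ((z : G) * e) := by group
              _ = e * ((w : G)⁻¹ * z) := by rw [h8]; group
          rw [← h7]; group
        have h6 := hfree (i + 1) (Nat.succ_pos _) hi' _ (mul_mem (inv_mem w.2) z.2) h5
        have h7 : (w : G) = z := by
          rw [inv_mul_eq_one] at h6
          exact h6
        exact (Subtype.ext h7).symm
      have hφbij : Function.Bijective φ := Finite.injective_iff_bijective.mp hφinj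
      have h8 : ∀ z : K, ρ ((z : G) * e * (z : G)⁻¹) u = ρ e (ρ (φ z) u) := by
        intro z
        rw [← rho_mul]
        congr 2
        change (z : G) * e * (z : G)⁻¹ = e * (e⁻¹ * (z : G) * e * (z : G)⁻¹)
        group
      simp only [h8]
      rw [← rho_sum]
      congr 1
      exact hφbij.sum_comp (fun y : K => ρ (y : G) u)
    rw [Finset.sum_congr rfl h3] at h0
    -- use `hN` on `S u`
    have h4 := hN _ (hSU u hu)
    rw [Finset.sum_range_succ', pow_zero, rho_one] at h4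
    have h5 : ∑ i ∈ Finset.range m, ρ (c ^ (i + 1)) (S u) = - S u := eq_neg_of_add_eq_zero_left h4
    rw [h5] at h0
    exact (sub_eq_zero.mp (by rw [sub_eq_add_neg]; rw [add_comm]; exact h0)).symm
  intro k hk u hu
  have h1 := hSk k hk u
  rw [hmain u hu, map_nsmul] at h1
  have h2 : ρ k u - u ∈ U := sub_mem (hUK k hk u hu) hu
  have h3 := hcard _ h2 (by rw [nsmul_sub, h1, sub_self])
  exact sub_eq_zero.mp h3

end Cfsg.Agent.Lib.Ward

namespace Cfsg.Agent.Lib.Ward

variable {G : Type*} [Group G] {V : Type*} [AddCommGroup V] (ρ : G →* AddMonoid.End V)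

/-- The sum over a finite subgroup. -/
noncomputable def sumOn (K : Subgroup G) [Finite K] (v : V) : V :=
  haveI := Fintype.ofFinite K
  ∑ z : K, ρ z v

variable (K : Subgroup G) [Finite K]

theorem sumOn_eq [Fintype K] (v : V) : sumOn ρ K v = ∑ z : K, ρ z v := by
  unfold sumOn
  congr!

theorem sumOn_mem (W : AddSubgroup V) (hW : ∀ k ∈ K, ∀ w ∈ W, ρ k w ∈ W) {w : V} (hw : w ∈ W) :
    sumOn ρ K w ∈ W := by
  haveI := Fintype.ofFinite K
  rw [sumOn_eq]
  exact AddSubgroup.sum_mem _ (fun z _ => hW z z.2 w hw)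

theorem sumOn_fixed {k : G} (hk : k ∈ K) (v : V) : ρ k (sumOn ρ K v) = sumOn ρ K v := by
  haveI := Fintype.ofFinite K
  rw [sumOn_eq, rho_sum]
  have hb : Function.Bijective (fun z : K => (⟨k, hk⟩ : K) * z) := Group.mulLeft_bijective _
  rw [← hb.sum_comp (fun z : K => ρ (z : G) v)]
  refine Finset.sum_congr rfl fun z _ => ?_
  change ρ k (ρ z v) = ρ (k * z) v
  rw [rho_mul]

theorem sumOn_of_fixed {v : V} (h : ∀ z ∈ K, ρ z v = v) : sumOn ρ K v = Nat.card K • v := by
  haveI := Fintype.ofFinite K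
  have h1 : ∀ z : K, ρ z v = v := fun z => h z.1 z.2
  rw [sumOn_eq]
  simp only [h1, Finset.sum_const, Finset.card_univ, Nat.card_eq_fintype_card]

theorem sumOn_rho_right {k : G} (hk : k ∈ K) (v : V) : sumOn ρ K (ρ k v) = sumOn ρ K v := by
  haveI := Fintype.ofFinite K
  rw [sumOn_eq, sumOn_eq]
  have hb : Function.Bijective (fun z : K => z * (⟨k, hk⟩ : K)) := Group.mulRight_bijective _
  rw [← hb.sum_comp (fun z : K => ρ (z : G) v)]
  refine Finset.sum_congr rfl fun z _ => ?_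
  change ρ z (ρ k v) = ρ (z * k) v
  rw [rho_mul]

theorem sumOn_sumOn (v : V) : sumOn ρ K (sumOn ρ K v) = Nat.card K • sumOn ρ K v :=
  sumOn_of_fixed ρ K (fun _ hz => sumOn_fixed ρ K hz v)

theorem sumOn_comm (x : G) (w : V) (h : ∀ z ∈ K, ρ z (ρ x w) = ρ x (ρ z w)) :
    sumOn ρ K (ρ x w) = ρ x (sumOn ρ K w) := by
  haveI := Fintype.ofFinite K
  rw [sumOn_eq, sumOn_eq, rho_sum]
  exact Finset.sum_congr rfl fun z _ => h z z.2

theorem sumOn_add (v w : V) : sumOn ρ K (v + w) = sumOn ρ K v + sumOn ρ K w := by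
  haveI := Fintype.ofFinite K
  simp only [sumOn_eq, map_add, Finset.sum_add_distrib]

theorem sumOn_sub (v w : V) : sumOn ρ K (v - w) = sumOn ρ K v - sumOn ρ K w := by
  haveI := Fintype.ofFinite K
  simp only [sumOn_eq, map_sub, Finset.sum_sub_distrib]

theorem sumOn_nsmul (n : ℕ) (v : V) : sumOn ρ K (n • v) = n • sumOn ρ K v := by
  haveI := Fintype.ofFinite K
  simp only [sumOn_eq, map_nsmul, Finset.smul_sum]

theorem sumOn_zero : sumOn ρ K (0 : V) = 0 := by
  have := sumOn_nsmul ρ K 0 (0 : V)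
  simpa using this

theorem sumOn_finset_sum {ι : Type*} (t : Finset ι) (f : ι → V) :
    sumOn ρ K (∑ i ∈ t, f i) = ∑ i ∈ t, sumOn ρ K (f i) := by
  classical
  induction t using Finset.induction_on with
  | empty => simp [sumOn_zero]
  | insert a t ha ih => rw [Finset.sum_insert ha, Finset.sum_insert ha, sumOn_add, ih]

/-- Reindexing by a conjugation normalising `K`. -/
theorem sumOn_conj (g : G) (hg : ∀ k ∈ K, g⁻¹ * k * g ∈ K) (v : V) :
    sumOn ρ K (ρ g v) = ρ g (sumOn ρ K v) := by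
  haveI := Fintype.ofFinite K
  rw [sumOn_eq, sumOn_eq, rho_sum]
  let φ : K → K := fun z => ⟨g⁻¹ * z * g, hg z z.2⟩
  have hφ : Function.Injective φ := by
    intro a b hab
    have h1 : g⁻¹ * (a : G) * g = g⁻¹ * b * g := congrArg Subtype.val hab
    apply Subtype.ext
    have h2 := congrArg (fun x => g * x * g⁻¹) h1
    simpa [mul_assoc] using h2
  have hb : Function.Bijective φ := Finite.injective_iff_bijective.mp hφ
  rw [← hb.sum_comp (fun z : K => ρ (g : G) (ρ (z : G) v))]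
  refine Finset.sum_congr rfl fun z _ => ?_
  change ρ z (ρ g v) = ρ g (ρ (g⁻¹ * z * g) v)
  simp only [rho_mul, rho_inv_right]

end Cfsg.Agent.Lib.Ward

namespace Cfsg.Agent.Lib.Ward

variable {G : Type*} [Group G]

theorem card_lt_card_of_lt' [Finite G] {H K : Subgroup G} (h : H < K) : Nat.card H < Nat.card K := by
  have h1 := Set.ncard_lt_ncard (s := ((H : Subgroup G) : Set G)) (t := ((K : Subgroup G) : Set G))
      (SetLike.coe_ssubset_coe.mpr h) (Set.toFinite _)
  rw [← Nat.card_coe_set_eq, ← Nat.card_coe_set_eq] at h1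
  exact h1

/-- Modulo a proper normal subgroup, a `q`-group has a non-trivial centre. -/
theorem exists_central_mod [Finite G] {q : ℕ} [Fact q.Prime] {Q K : Subgroup G} (hQ : IsPGroup q Q)
    (hKn : ∀ y ∈ Q, ∀ k ∈ K, y * k * y⁻¹ ∈ K) (hne : ¬ Q ≤ K) :
    ∃ z ∈ Q, z ∉ K ∧ ∀ y ∈ Q, z * y * z⁻¹ * y⁻¹ ∈ K := by
  let K' : Subgroup Q := K.subgroupOf Q
  haveI hK'n : K'.Normal := by
    refine ⟨fun k hk y => ?_⟩
    exact hKn y y.2 k hk
  have hntriv : Nontrivial (Q ⧸ K') := by
    rw [QuotientGroup.nontrivial_iff]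
    intro h
    apply hne
    intro x hx
    have : (⟨x, hx⟩ : Q) ∈ K' := by rw [h]; exact Subgroup.mem_top _
    exact this
  have hXp : IsPGroup q (Q ⧸ K') := hQ.to_quotient K'
  have hcen := hXp.center_nontrivial
  obtain ⟨⟨c, hc⟩, hc1⟩ := exists_ne (1 : Subgroup.center (Q ⧸ K'))
  obtain ⟨z, rfl⟩ := QuotientGroup.mk_surjective c
  refine ⟨z.1, z.2, ?_, fun y hy => ?_⟩
  · intro hz
    apply hc1
    apply Subtype.ext
    exact (QuotientGroup.eq_one_iff z).2 hz
  · have h1 : ((z * ⟨y, hy⟩ * z⁻¹ * (⟨y, hy⟩ : Q)⁻¹ : Q) : Q ⧸ K') = 1 := by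
      have h2 := Subgroup.mem_center_iff.mp hc ((⟨y, hy⟩ : Q) : Q ⧸ K')
      rw [QuotientGroup.mk_mul, QuotientGroup.mk_mul, QuotientGroup.mk_mul, QuotientGroup.mk_inv,
        QuotientGroup.mk_inv, ← h2]
      group
    have h3 : (z * ⟨y, hy⟩ * z⁻¹ * (⟨y, hy⟩ : Q)⁻¹ : Q) ∈ K' := (QuotientGroup.eq_one_iff _).1 h1
    exact h3

end Cfsg.Agent.Lib.Ward
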