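import Mathlib
import Cfsg.Agent.Lib.Ward.Frob
import Cfsg.Agent.Lib.Ward.Elem
import Cfsg.Agent.Lib.Hall.Generation

/-!
# The core of Ward's theorem

`A` elementary abelian of order `p²`, `Q` an `A`-invariant `q`-group with `C_Q(A) = 1`, acting on a
module `V` of characteristic `r ≠ q` in such a way that `C_Q(c)` acts trivially on `C_V(c)` for all
`1 ≠ c ∈ A`. Then
* `C_Q(c)` and `C_Q(d)` commute for independent `c, d`;
* every `T` commuting with `a ∈ A`, normalised by `A`, with `C_T(A) = 1`, centralising `C_Q(a)`,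
  centralises `Q`.
-/

set_option autoImplicit false
set_option linter.unusedSectionVars false

namespace Cfsg.Agent.Lib.Ward

open Subgroup

/-- The setting. -/
structure WSet (G V : Type*) [Group G] [AddCommGroup V] where
  A : Subgroup G
  p : ℕ
  hp : p.Prime
  hcard : Nat.card A = p ^ 2
  hexp : ∀ x ∈ A, x ^ p = 1
  Q : Subgroup G
  q : ℕ
  hq : q.Prime
  hQq : IsPGroup q Q
  hQA : ∀ a ∈ A, ∀ x ∈ Q, a * x * a⁻¹ ∈ Q
  hQfix : ∀ x ∈ Q, (∀ a ∈ A, a * x = x * a) → x = 1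
  hpQ : p.Coprime (Nat.card Q)
  ρ : G →* AddMonoid.End V
  r : ℕ
  hr : r.Prime
  hqr : q ≠ r
  hrV : ∀ v : V, r • v = 0
  hI : ∀ c ∈ A, c ≠ 1 → ∀ x ∈ Q, c * x = x * c → ∀ v, ρ c v = v → ρ x v = v

namespace WSet

variable {G V : Type*} [Group G] [AddCommGroup V] [Finite G] (s : WSet G V)

/-- `C_Q(c)`. -/
def Cc (c : G) : Subgroup G := s.Q ⊓ centralizer {c}

theorem mem_Cc {c x : G} : x ∈ s.Cc c ↔ x ∈ s.Q ∧ c * x = x * c := by
  unfold Cc
  rw [Subgroup.mem_inf, Subgroup.mem_centralizer_singleton_iff]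
  exact and_congr_right fun _ => eq_comm

/-- The norm of `c`. -/
noncomputable def Nc (c : G) (v : V) : V := ∑ i ∈ Finset.range s.p, s.ρ (c ^ i) v

theorem Nc_fixed {c : G} (hc : c ∈ s.A) (v : V) : s.ρ c (s.Nc c v) = s.Nc c v := by
  unfold Nc
  rw [rho_sum]
  have h1 : ∀ i ∈ Finset.range s.p, s.ρ c (s.ρ (c ^ i) v) = s.ρ (c ^ (i + 1)) v := by
    intro i _
    rw [← rho_mul, pow_succ']
  rw [Finset.sum_congr rfl h1]
  obtain ⟨m, hm⟩ : ∃ m, s.p = m + 1 := ⟨s.p - 1, by have := s.hp.pos; omega⟩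
  have hcp := s.hexp c hc
  rw [hm] at hcp ⊢
  rw [Finset.sum_range_succ, Finset.sum_range_succ', hcp, pow_zero]
  
theorem nsmul_inj_of_dvd {H : Subgroup G} (hH : H ≤ s.Q) (u : V) (h : Nat.card H • u = 0) :
    u = 0 := by
  haveI : Fact s.q.Prime := ⟨s.hq⟩
  have h1 : addOrderOf u ∣ Nat.card H := addOrderOf_dvd_of_nsmul_eq_zero h
  have h2 : addOrderOf u ∣ s.r := addOrderOf_dvd_of_nsmul_eq_zero (s.hrV u)
  have hQp : IsPGroup s.q H := s.hQq.to_le hH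
  obtain ⟨k, hk⟩ := IsPGroup.iff_card.mp hQp
  rw [hk] at h1
  have h3 : Nat.Coprime (s.q ^ k) s.r :=
    Nat.Coprime.pow_left k ((Nat.coprime_primes s.hq s.hr).mpr s.hqr)
  have h4 : addOrderOf u = 1 := Nat.Coprime.eq_one_of_dvd (h3.coprime_dvd_left h1) h2
  exact AddMonoid.addOrderOf_eq_one_iff.mp h4

theorem A_comm {x y : G} (hx : x ∈ s.A) (hy : y ∈ s.A) : x * y = y * x :=
  comm_of_card s.hp s.hcard hx hy

theorem le_normalizer_of_inv {K : Subgroup G} (hK : ∀ a ∈ s.A, ∀ x ∈ K, a * x * a⁻¹ ∈ K) :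
    s.A ≤ normalizer (K : Set G) := by
  intro a ha
  rw [Subgroup.mem_normalizer_iff]
  intro h
  constructor
  · exact hK a ha h
  · intro h1
    have h2 := hK a⁻¹ (inv_mem ha) _ h1
    have h3 : a⁻¹ * (a * h * a⁻¹) * a⁻¹⁻¹ = h := by group
    rwa [h3] at h2

/-- The generation theorem in a handy form. -/
theorem gen_le {K L : Subgroup G} (hK : ∀ a ∈ s.A, ∀ x ∈ K, a * x * a⁻¹ ∈ K)
    (hcop : s.p.Coprime (Nat.card K))
    (h : ∀ c ∈ s.A, c ≠ 1 → ∀ x ∈ K, c * x = x * c → x ∈ L) : K ≤ L := by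
  have h1 := Cfsg.Agent.Lib.Hall.generation_elementary s.hp s.hcard s.hexp (Nat.card K) K le_rfl
    (s.le_normalizer_of_inv hK) hcop
  rw [← h1]
  refine iSup₂_le ?_
  rintro c ⟨hc, hc1⟩ x ⟨hx1, hx2⟩
  exact h c hc hc1 x hx1 ((Subgroup.mem_centralizer_singleton_iff.mp hx2).symm)

/-- The Frobenius lemma for `K = C_Q(d)`, `h = c`. -/
theorem key {c d : G} (hc : c ∈ s.A) (hc1 : c ≠ 1) (hd : d ∈ s.A) (hdc : d ∉ zpowers c)
    (U : AddSubgroup V) (hU : ∀ k ∈ s.Cc d, ∀ u ∈ U, s.ρ k u ∈ U)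
    (hN : ∀ u ∈ U, s.Nc c u = 0) : ∀ k ∈ s.Cc d, ∀ u ∈ U, s.ρ k u = u := by
  haveI : Finite (s.A) := inferInstance
  refine frob_trivial s.ρ (s.Cc d) c s.p s.hp.pos (s.hexp c hc) ?_ ?_ U hU hN
    (fun u _ h => s.nsmul_inj_of_dvd inf_le_left u h)
  · intro k hk
    rw [s.mem_Cc] at hk ⊢
    refine ⟨s.hQA c hc k hk.1, ?_⟩
    have hcd := s.A_comm hc hd
    have h1 : d * k = k * d := hk.2
    calc d * (c * k * c⁻¹) = (d * c) * k * c⁻¹ := by group
      _ = (c * d) * k * c⁻¹ := by rw [hcd]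
      _ = c * (d * k) * c⁻¹ := by group
      _ = c * (k * d) * c⁻¹ := by rw [h1]
      _ = c * k * (d * c⁻¹) := by group
      _ = c * k * (c⁻¹ * d) := by
        congr 1
        rw [mul_inv_eq_iff_eq_mul, mul_assoc, ← hcd, inv_mul_cancel_left]
      _ = _ := by group
  · intro i hi0 hip k hk hki
    rw [s.mem_Cc] at hk
    apply s.hQfix k hk.1
    haveI : Fact s.p.Prime := ⟨s.hp⟩
    have hci : c ^ i ≠ 1 := by
      have hord : orderOf c = s.p := orderOf_eq_prime (s.hexp c hc) hc1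
      exact pow_ne_one_of_lt_orderOf hi0.ne' (hord ▸ hip)
    have hcik : c ^ i * k = k * c ^ i := by
      rw [mul_inv_eq_iff_eq_mul] at hki
      exact hki
    have hck : c * k = k * c :=
      comm_of_comm_mem_zpowers s.hp (s.hexp c hc) hc1 (npow_mem_zpowers c i) hci hcik
    exact comm_of_comm_indep s.hp s.hcard s.hexp hc hc1 hd hdc hck hk.2

/-- The kernel of the action on an additive subgroup. -/
def kerOn (W : AddSubgroup V) : Subgroup G where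
  carrier := {x | x ∈ s.Q ∧ ∀ w ∈ W, s.ρ x w = w}
  one_mem' := ⟨one_mem _, fun w _ => rho_one _ w⟩
  mul_mem' := by
    rintro a b ⟨ha, ha'⟩ ⟨hb, hb'⟩
    refine ⟨mul_mem ha hb, fun w hw => ?_⟩
    rw [rho_mul, hb' w hw, ha' w hw]
  inv_mem' := by
    rintro a ⟨ha, ha'⟩
    refine ⟨inv_mem ha, fun w hw => ?_⟩
    have h1 := rho_inv_left s.ρ a w
    rwa [ha' w hw] at h1

theorem mem_kerOn {W : AddSubgroup V} {x : G} :
    x ∈ s.kerOn W ↔ x ∈ s.Q ∧ ∀ w ∈ W, s.ρ x w = w := Iff.rfl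

/-- The property that independent centralisers commute on `W`. -/
def PW (W : AddSubgroup V) : Prop :=
  ∀ c ∈ s.A, c ≠ 1 → ∀ d ∈ s.A, d ∉ zpowers c → ∀ x ∈ s.Cc c, ∀ y ∈ s.Cc d, ∀ w ∈ W,
    s.ρ (x * y * x⁻¹ * y⁻¹) w = w

theorem kerOn_le (W : AddSubgroup V) : s.kerOn W ≤ s.Q := fun _ h => h.1

theorem kerOn_normal {W : AddSubgroup V} (hWQ : ∀ x ∈ s.Q, ∀ w ∈ W, s.ρ x w ∈ W) :
    ∀ y ∈ s.Q, ∀ k ∈ s.kerOn W, y * k * y⁻¹ ∈ s.kerOn W := by
  intro y hy k hk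
  refine ⟨mul_mem (mul_mem hy hk.1) (inv_mem hy), fun w hw => ?_⟩
  rw [rho_mul, rho_mul, hk.2 _ (hWQ _ (inv_mem hy) w hw), rho_inv_right]

/-- The commutator lemma on an invariant subgroup, by induction on the image of `Q`. -/
theorem comm_on (n : ℕ) : ∀ W : AddSubgroup V, (∀ x ∈ s.Q, ∀ w ∈ W, s.ρ x w ∈ W) →
    (∀ a ∈ s.A, ∀ w ∈ W, s.ρ a w ∈ W) → Nat.card s.Q - Nat.card (s.kerOn W) = n → s.PW W := by
  induction n using Nat.strong_induction_on with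
  | _ n ih =>
    intro W hWQ hWA hn
    by_cases hK : s.Q ≤ s.kerOn W
    · intro c _ _ d _ _ x hx y hy w hw
      have hx' := hK ((s.mem_Cc).1 hx).1
      have hy' := hK ((s.mem_Cc).1 hy).1
      exact (mul_mem (mul_mem (mul_mem hx' hy') (inv_mem hx')) (inv_mem hy')).2 w hw
    haveI : Fact s.q.Prime := ⟨s.hq⟩
    obtain ⟨z₀, hz₀Q, hz₀K, hz₀⟩ := exists_central_mod s.hQq (s.kerOn_normal hWQ) hK
    -- the subgroup of elements commuting with `Q` on `W`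
    let Z₁ : Subgroup G :=
      { carrier := {z | z ∈ s.Q ∧ ∀ y ∈ s.Q, ∀ w ∈ W, s.ρ z (s.ρ y w) = s.ρ y (s.ρ z w)}
        one_mem' := ⟨one_mem _, fun y _ w _ => by rw [rho_one, rho_one]⟩
        mul_mem' := by
          rintro a b ⟨ha, ha'⟩ ⟨hb, hb'⟩
          refine ⟨mul_mem ha hb, fun y hy w hw => ?_⟩
          rw [rho_mul, rho_mul, hb' y hy w hw, ha' y hy _ (hWQ b hb w hw)]
        inv_mem' := by
          rintro a ⟨ha, ha'⟩
          refine ⟨inv_mem ha, fun y hy w hw => ?_⟩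
          have hw' := hWQ _ (inv_mem ha) w hw
          have h1 := ha' y hy _ hw'
          rw [rho_inv_right] at h1
          rw [← h1, rho_inv_left] }
    have hZ₁mem : ∀ {z : G}, z ∈ Z₁ ↔ z ∈ s.Q ∧ ∀ y ∈ s.Q, ∀ w ∈ W,
        s.ρ z (s.ρ y w) = s.ρ y (s.ρ z w) := Iff.rfl
    have hZ₁Q : Z₁ ≤ s.Q := fun _ h => h.1
    have hZ₁A : ∀ a ∈ s.A, ∀ x ∈ Z₁, a * x * a⁻¹ ∈ Z₁ := by
      intro a ha x hx
      refine ⟨s.hQA a ha x hx.1, fun y hy w hw => ?_⟩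
      have hy' : a⁻¹ * y * a ∈ s.Q := by
        have := s.hQA a⁻¹ (inv_mem ha) y hy
        rwa [inv_inv] at this
      have hw' := hWA _ (inv_mem ha) w hw
      have h1 := hx.2 _ hy' _ hw'
      have e1 : s.ρ (a * x * a⁻¹) (s.ρ y w) =
          s.ρ a (s.ρ x (s.ρ (a⁻¹ * y * a) (s.ρ a⁻¹ w))) := by
        simp only [rho_mul, rho_inv_right, rho_inv_left]
      have e2 : s.ρ y (s.ρ (a * x * a⁻¹) w) =
          s.ρ a (s.ρ (a⁻¹ * y * a) (s.ρ x (s.ρ a⁻¹ w))) := by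
        simp only [rho_mul, rho_inv_right, rho_inv_left]
      rw [e1, e2, h1]
    have hZ₁z₀ : z₀ ∈ Z₁ := by
      refine ⟨hz₀Q, fun y hy w hw => ?_⟩
      have h1 := (hz₀ y hy).2 _ (hWQ _ hy _ (hWQ _ hz₀Q w hw))
      rw [rho_mul, rho_mul, rho_mul, rho_inv_left, rho_inv_left] at h1
      exact h1
    -- a central element commuting with some `c`
    have hpZ₁ : s.p.Coprime (Nat.card Z₁) :=
      Nat.Coprime.coprime_dvd_right (Subgroup.card_dvd_of_le hZ₁Q) s.hpQ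
    obtain ⟨c, hc, hc1, x₀, hx₀Z, hx₀c, hx₀K⟩ : ∃ c ∈ s.A, c ≠ 1 ∧ ∃ x ∈ Z₁, c * x = x * c ∧
        x ∉ s.kerOn W := by
      by_contra hcon
      push Not at hcon
      have hle : Z₁ ≤ s.kerOn W := s.gen_le hZ₁A hpZ₁ (fun c hc hc1 x hx hxc =>
        hcon c hc hc1 x hx hxc)
      exact hz₀K (hle hZ₁z₀)
    -- the subgroup `Z₂`
    let Z₂ : Subgroup G := Z₁ ⊓ centralizer {c}
    have hZ₂mem : ∀ {z : G}, z ∈ Z₂ ↔ z ∈ Z₁ ∧ c * z = z * c := by
      intro z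
      change z ∈ Z₁ ⊓ centralizer {c} ↔ _
      rw [Subgroup.mem_inf, Subgroup.mem_centralizer_singleton_iff]
      exact and_congr_right fun _ => eq_comm
    have hZ₂Q : Z₂ ≤ s.Q := fun z hz => (hZ₂mem.1 hz).1.1
    have hZ₂Cc : Z₂ ≤ s.Cc c := fun z hz => (s.mem_Cc).2 ⟨(hZ₂mem.1 hz).1.1, (hZ₂mem.1 hz).2⟩
    have hZ₂A : ∀ a ∈ s.A, ∀ x ∈ Z₂, a * x * a⁻¹ ∈ Z₂ := by
      intro a ha x hx
      rw [hZ₂mem] at hx ⊢
      refine ⟨hZ₁A a ha x hx.1, ?_⟩
      have hac := s.A_comm ha hc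
      have h1 : c * a = a * c := hac.symm
      have h2 : c * a⁻¹ = a⁻¹ * c := by
        rw [mul_inv_eq_iff_eq_mul, mul_assoc, h1, inv_mul_cancel_left]
      calc c * (a * x * a⁻¹) = (c * a) * x * a⁻¹ := by group
        _ = a * (c * x) * a⁻¹ := by rw [h1]; group
        _ = a * (x * c) * a⁻¹ := by rw [hx.2]
        _ = a * x * (c * a⁻¹) := by group
        _ = a * x * (a⁻¹ * c) := by rw [h2]
        _ = _ := by group
    have hZ₂comm : ∀ z ∈ Z₂, ∀ y ∈ s.Q, ∀ w ∈ W, s.ρ z (s.ρ y w) = s.ρ y (s.ρ z w) :=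
      fun z hz => (hZ₂mem.1 hz).1.2
    have hZ₂W : ∀ k ∈ Z₂, ∀ w ∈ W, s.ρ k w ∈ W := fun k hk w hw => hWQ k (hZ₂Q hk) w hw
    -- the fixed points
    let W₀ : AddSubgroup V :=
      { carrier := {w | w ∈ W ∧ ∀ z ∈ Z₂, s.ρ z w = w}
        zero_mem' := ⟨zero_mem _, fun _ _ => map_zero _⟩
        add_mem' := by
          rintro a b ⟨ha, ha'⟩ ⟨hb, hb'⟩
          exact ⟨add_mem ha hb, fun z hz => by rw [map_add, ha' z hz, hb' z hz]⟩
        neg_mem' := by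
          rintro a ⟨ha, ha'⟩
          exact ⟨neg_mem ha, fun z hz => by rw [map_neg, ha' z hz]⟩ }
    have hW₀mem : ∀ {w : V}, w ∈ W₀ ↔ w ∈ W ∧ ∀ z ∈ Z₂, s.ρ z w = w := Iff.rfl
    have hW₀Q : ∀ x ∈ s.Q, ∀ w ∈ W₀, s.ρ x w ∈ W₀ := by
      rintro x hx w ⟨hw, hw'⟩
      exact ⟨hWQ x hx w hw, fun z hz => by rw [hZ₂comm z hz x hx w hw, hw' z hz]⟩
    have hW₀A : ∀ a ∈ s.A, ∀ w ∈ W₀, s.ρ a w ∈ W₀ := by
      rintro a ha w ⟨hw, hw'⟩
      refine ⟨hWA a ha w hw, fun z hz => ?_⟩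
      have h1 : a⁻¹ * z * a ∈ Z₂ := by
        have := hZ₂A a⁻¹ (inv_mem ha) z hz
        rwa [inv_inv] at this
      have h2 := hw' _ h1
      have h3 : s.ρ z (s.ρ a w) = s.ρ a (s.ρ (a⁻¹ * z * a) w) := by
        simp only [rho_mul, rho_inv_right]
      rw [h3, h2]
    -- the kernel of the averaging
    let Y : AddSubgroup V :=
      { carrier := {w | w ∈ W ∧ sumOn s.ρ Z₂ w = 0}
        zero_mem' := ⟨zero_mem _, by
          have := sumOn_nsmul s.ρ Z₂ 0 (0 : V)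
          simpa using this⟩
        add_mem' := by
          rintro a b ⟨ha, ha'⟩ ⟨hb, hb'⟩
          exact ⟨add_mem ha hb, by rw [sumOn_add, ha', hb', add_zero]⟩
        neg_mem' := by
          rintro a ⟨ha, ha'⟩
          refine ⟨neg_mem ha, ?_⟩
          have h1 := sumOn_sub s.ρ Z₂ 0 a
          rw [zero_sub, ha', sub_zero] at h1
          rw [h1]
          have := sumOn_nsmul s.ρ Z₂ 0 (0 : V)
          simpa using this }
    have hYmem : ∀ {w : V}, w ∈ Y ↔ w ∈ W ∧ sumOn s.ρ Z₂ w = 0 := Iff.rfl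
    have hYQ : ∀ x ∈ s.Q, ∀ w ∈ Y, s.ρ x w ∈ Y := by
      rintro x hx w ⟨hw, hw'⟩
      refine ⟨hWQ x hx w hw, ?_⟩
      rw [sumOn_comm s.ρ Z₂ x w (fun z hz => hZ₂comm z hz x hx w hw), hw', map_zero]
    have hYc : ∀ i : ℕ, ∀ w ∈ Y, s.ρ (c ^ i) w ∈ Y := by
      intro i
      induction i with
      | zero => intro w hw; simpa [rho_one] using hw
      | succ i ih =>
        intro w hw
        have h1 := ih w hw
        rw [pow_succ', rho_mul]
        refine ⟨hWA c hc _ h1.1, ?_⟩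
        rw [sumOn_comm s.ρ Z₂ c _ (fun z hz => ?_), h1.2, map_zero]
        rw [← rho_mul s.ρ z c, ← rho_mul s.ρ c z, (hZ₂mem.1 hz).2]
    have hYN : ∀ u ∈ Y, s.Nc c u = 0 := by
      intro u hu
      have hv : s.Nc c u ∈ Y := AddSubgroup.sum_mem _ (fun i _ => hYc i u hu)
      have hfix := s.Nc_fixed hc u
      have h1 : ∀ z ∈ Z₂, s.ρ z (s.Nc c u) = s.Nc c u := by
        intro z hz
        have hz' := (s.mem_Cc).1 (hZ₂Cc hz)
        exact s.hI c hc hc1 z hz'.1 hz'.2 _ hfix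
      have h2 := sumOn_of_fixed s.ρ Z₂ h1
      rw [hv.2] at h2
      exact s.nsmul_inj_of_dvd hZ₂Q _ h2.symm
    have hYtriv : ∀ d ∈ s.A, d ∉ zpowers c → ∀ k ∈ s.Cc d, ∀ u ∈ Y, s.ρ k u = u := by
      intro d hd hdc
      exact s.key hc hc1 hd hdc Y (fun k hk u hu => hYQ k ((s.mem_Cc).1 hk).1 u hu) hYN
    -- the induction hypothesis on `W₀`
    have hmeas : Nat.card s.Q - Nat.card (s.kerOn W₀) < n := by
      have hle₀ : s.kerOn W ≤ s.kerOn W₀ := fun x hx => ⟨hx.1, fun w hw => hx.2 w hw.1⟩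
      have hx₀W₀ : x₀ ∈ s.kerOn W₀ := ⟨hx₀Z.1, fun w hw => hw.2 x₀ (hZ₂mem.2 ⟨hx₀Z, hx₀c⟩)⟩
      have hlt₀ : s.kerOn W < s.kerOn W₀ := lt_of_le_of_ne hle₀ (by
        intro h
        exact hx₀K (h ▸ hx₀W₀))
      have hcard₀ := card_lt_card_of_lt' hlt₀
      have hQW : Nat.card (s.kerOn W) < Nat.card s.Q := by
        have hltQ : s.kerOn W < s.Q := lt_of_le_of_ne (s.kerOn_le W) (by
          intro h
          exact hK h.ge)
        exact card_lt_card_of_lt' hltQ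
      omega
    have hPW₀ := ih _ hmeas W₀ hW₀Q hW₀A rfl
    -- the conclusion
    intro c' hc' hc'1 d' hd' hd'c' x hx y hy w hw
    have hx' := ((s.mem_Cc).1 hx).1
    have hy' := ((s.mem_Cc).1 hy).1
    set g := x * y * x⁻¹ * y⁻¹ with hg
    -- on `Y`
    have hgY : ∀ u ∈ Y, s.ρ g u = u := by
      intro u hu
      by_cases hd'c : d' ∈ zpowers c
      · have hc'c : c' ∉ zpowers c := by
          intro hc'c
          apply hd'c'
          have hcc' : c ∈ zpowers c' :=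
            mem_zpowers_of_mem_zpowers s.hp (s.hexp c hc) hc1 hc'c hc'1
          exact (Subgroup.zpowers_le.mpr hcc') hd'c
        have htr := hYtriv c' hc' hc'c
        have hx1 : s.ρ x⁻¹ (s.ρ y⁻¹ u) = s.ρ y⁻¹ u :=
          by
            have h1 := htr x hx _ (hYQ _ (inv_mem hy') u hu)
            have h2 := rho_inv_left s.ρ x (s.ρ y⁻¹ u)
            rwa [h1] at h2
        rw [hg, rho_mul, rho_mul, rho_mul, hx1, rho_inv_right, htr x hx u hu]
      · have htr := hYtriv d' hd' hd'c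
        have hy1 : s.ρ y⁻¹ u = u := by
          have h1 := htr y hy u hu
          have h2 := rho_inv_left s.ρ y u
          rwa [h1] at h2
        rw [hg, rho_mul, rho_mul, rho_mul, hy1, htr y hy _ (hYQ _ (inv_mem hx') u hu),
          rho_inv_right]
    -- decomposition
    set m := Nat.card Z₂ with hm
    set w₀ := sumOn s.ρ Z₂ w with hw₀
    have hw₀mem : w₀ ∈ W₀ :=
      ⟨sumOn_mem s.ρ Z₂ W hZ₂W hw, fun z hz => sumOn_fixed s.ρ Z₂ hz w⟩
    have hy₀mem : m • w - w₀ ∈ Y := by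
      refine ⟨sub_mem (nsmul_mem hw m) hw₀mem.1, ?_⟩
      rw [sumOn_sub, sumOn_nsmul, hw₀, sumOn_sumOn, sub_self]
    have h1 : s.ρ g w₀ = w₀ := hPW₀ c' hc' hc'1 d' hd' hd'c' x hx y hy w₀ hw₀mem
    have h2 := hgY _ hy₀mem
    rw [map_sub, h1, map_nsmul, sub_left_inj] at h2
    have h3 : m • (s.ρ g w - w) = 0 := by
      rw [nsmul_sub, h2, sub_self]
    exact sub_eq_zero.mp (s.nsmul_inj_of_dvd hZ₂Q _ h3)

section faithful

variable (hfaith : ∀ x ∈ s.Q, (∀ v, s.ρ x v = v) → x = 1)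

include hfaith

/-- `C_Q(c)` and `C_Q(d)` commute for independent `c`, `d`. -/
theorem comm_indep {c d x y : G} (hc : c ∈ s.A) (hc1 : c ≠ 1) (hd : d ∈ s.A) (hdc : d ∉ zpowers c)
    (hx : x ∈ s.Cc c) (hy : y ∈ s.Cc d) : x * y = y * x := by
  have hP := s.comm_on _ (⊤ : AddSubgroup V) (fun _ _ _ _ => AddSubgroup.mem_top _)
    (fun _ _ _ _ => AddSubgroup.mem_top _) rfl
  have h1 := hP c hc hc1 d hd hdc x hx y hy
  have hx' := ((s.mem_Cc).1 hx).1
  have hy' := ((s.mem_Cc).1 hy).1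
  have h2 := hfaith _ (mul_mem (mul_mem (mul_mem hx' hy') (inv_mem hx')) (inv_mem hy'))
    (fun v => h1 v (AddSubgroup.mem_top _))
  rw [mul_inv_eq_one, mul_inv_eq_iff_eq_mul] at h2
  exact h2

/-- `C_Q(c)` is normal in `Q`. -/
theorem Cc_normal {c : G} (hc : c ∈ s.A) (hc1 : c ≠ 1) :
    ∀ y ∈ s.Q, ∀ x ∈ s.Cc c, y * x * y⁻¹ ∈ s.Cc c := by
  have hle : s.Q ≤ normalizer (s.Cc c : Set G) := by
    refine s.gen_le s.hQA s.hpQ ?_
    intro e he he1 y hy hey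
    by_cases hec : e ∈ zpowers c
    · apply Subgroup.le_normalizer
      exact (s.mem_Cc).2 ⟨hy, comm_of_comm_mem_zpowers s.hp (s.hexp c hc) hc1 hec he1 hey⟩
    · have hyCe : y ∈ s.Cc e := (s.mem_Cc).2 ⟨hy, hey⟩
      rw [Subgroup.mem_normalizer_iff]
      intro h
      constructor
      · intro hh
        have h1 := s.comm_indep hfaith hc hc1 he hec hh hyCe
        have h2 : y * h * y⁻¹ = h := by rw [← h1]; group
        rwa [h2]
      · intro hh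
        have h1 := s.comm_indep hfaith hc hc1 he hec hh hyCe
        have h3 : y * h * y⁻¹ * y = y * (y * h * y⁻¹) := h1
        have h4 : y * h * y⁻¹ * y = y * h := by group
        rw [h4] at h3
        have h5 : h = y * h * y⁻¹ := mul_left_cancel h3
        rw [h5]
        exact hh
  intro y hy x hx
  exact ((Subgroup.mem_normalizer_iff.mp (hle hy)) x).1 hx

end faithful

/-- Minimal `Q`-invariant non-zero subgroups. -/
def IsMinQ (U : AddSubgroup V) : Prop :=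
  U ≠ ⊥ ∧ (∀ x ∈ s.Q, ∀ u ∈ U, s.ρ x u ∈ U) ∧
    ∀ U' : AddSubgroup V, U' ≤ U → (∀ x ∈ s.Q, ∀ u ∈ U', s.ρ x u ∈ U') → U' = ⊥ ∨ U' = U

/-- The subgroup of elements of `Q` moved by `g` into `J`. -/
def modSub (J : Subgroup G) (hJ : ∀ y ∈ s.Q, ∀ j ∈ J, y * j * y⁻¹ ∈ J) (g : G) : Subgroup G where
  carrier := {y | y ∈ s.Q ∧ y⁻¹ * (g * y * g⁻¹) ∈ J}
  one_mem' := ⟨one_mem _, by simp [one_mem]⟩
  mul_mem' := by
    rintro a b ⟨ha, ha'⟩ ⟨hb, hb'⟩
    refine ⟨mul_mem ha hb, ?_⟩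
    have h1 : (a * b)⁻¹ * (g * (a * b) * g⁻¹) =
        (b⁻¹ * (a⁻¹ * (g * a * g⁻¹)) * b⁻¹⁻¹) * (b⁻¹ * (g * b * g⁻¹)) := by group
    rw [h1]
    exact mul_mem (hJ _ (inv_mem hb) _ ha') hb'
  inv_mem' := by
    rintro a ⟨ha, ha'⟩
    refine ⟨inv_mem ha, ?_⟩
    have h1 : a⁻¹⁻¹ * (g * a⁻¹ * g⁻¹) = a * (a⁻¹ * (g * a * g⁻¹))⁻¹ * a⁻¹ := by group
    rw [h1]
    exact hJ _ ha _ (inv_mem ha')

section minimal

variable (hfaith : ∀ x ∈ s.Q, (∀ v, s.ρ x v = v) → x = 1)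

include hfaith

/-- If `C_Q(c)` acts non-trivially on a minimal `U`, the norm of `c` vanishes on `U`. -/
theorem Nc_zero {U : AddSubgroup V} (hU : s.IsMinQ U) {c : G} (hc : c ∈ s.A) (hc1 : c ≠ 1)
    (h : ¬ s.Cc c ≤ s.kerOn U) : ∀ u ∈ U, s.Nc c u = 0 := by
  let CU : AddSubgroup V :=
    { carrier := {u | u ∈ U ∧ ∀ x ∈ s.Cc c, s.ρ x u = u}
      zero_mem' := ⟨zero_mem _, fun _ _ => map_zero _⟩
      add_mem' := by
        rintro a b ⟨ha, ha'⟩ ⟨hb, hb'⟩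
        exact ⟨add_mem ha hb, fun z hz => by rw [map_add, ha' z hz, hb' z hz]⟩
      neg_mem' := by
        rintro a ⟨ha, ha'⟩
        exact ⟨neg_mem ha, fun z hz => by rw [map_neg, ha' z hz]⟩ }
  have hCUQ : ∀ y ∈ s.Q, ∀ u ∈ CU, s.ρ y u ∈ CU := by
    rintro y hy u ⟨hu, hu'⟩
    refine ⟨hU.2.1 y hy u hu, fun x hx => ?_⟩
    have h1 : y⁻¹ * x * y ∈ s.Cc c := by
      have := s.Cc_normal hfaith hc hc1 y⁻¹ (inv_mem hy) x hx
      rwa [inv_inv] at this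
    have h2 := hu' _ h1
    have h3 : s.ρ x (s.ρ y u) = s.ρ y (s.ρ (y⁻¹ * x * y) u) := by
      simp only [rho_mul, rho_inv_right]
    rw [h3, h2]
  have hCU0 : CU = ⊥ := by
    rcases hU.2.2 CU (fun u hu => hu.1) hCUQ with h0 | h0
    · exact h0
    · exfalso
      apply h
      intro x hx
      refine ⟨((s.mem_Cc).1 hx).1, fun w hw => ?_⟩
      have : w ∈ CU := by rw [h0]; exact hw
      exact this.2 x hx
  intro u hu
  have hsum0 : sumOn s.ρ (s.Cc c) u = 0 := by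
    have h1 : sumOn s.ρ (s.Cc c) u ∈ CU :=
      ⟨sumOn_mem s.ρ _ U (fun k hk w hw => hU.2.1 k ((s.mem_Cc).1 hk).1 w hw) hu,
        fun z hz => sumOn_fixed s.ρ _ hz u⟩
    rw [hCU0] at h1
    exact (AddSubgroup.mem_bot).mp h1
  have hfix := s.Nc_fixed hc u
  have h1 : ∀ z ∈ s.Cc c, s.ρ z (s.Nc c u) = s.Nc c u := by
    intro z hz
    have hz' := (s.mem_Cc).1 hz
    exact s.hI c hc hc1 z hz'.1 hz'.2 _ hfix
  have h2 := sumOn_of_fixed s.ρ _ h1
  have h3 : sumOn s.ρ (s.Cc c) (s.Nc c u) = 0 := by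
    unfold Nc
    rw [sumOn_finset_sum]
    apply Finset.sum_eq_zero
    intro i _
    rw [sumOn_comm s.ρ _ (c ^ i) u, hsum0, map_zero]
    intro z hz
    have hz' := ((s.mem_Cc).1 hz).2
    have h4 : c ^ i * z = z * c ^ i := (Commute.pow_left hz' i).eq
    rw [← rho_mul, ← rho_mul, ← h4]
  rw [h3] at h2
  exact s.nsmul_inj_of_dvd inf_le_left _ h2.symm

/-- If `C_Q(c)` acts non-trivially on a minimal `U`, `C_Q(d)` acts trivially for `d` independent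
of `c`. -/
theorem Cc_le_kerOn {U : AddSubgroup V} (hU : s.IsMinQ U) {c d : G} (hc : c ∈ s.A) (hc1 : c ≠ 1)
    (h : ¬ s.Cc c ≤ s.kerOn U) (hd : d ∈ s.A) (hdc : d ∉ zpowers c) : s.Cc d ≤ s.kerOn U := by
  intro k hk
  refine ⟨((s.mem_Cc).1 hk).1, fun u hu => ?_⟩
  exact s.key hc hc1 hd hdc U (fun k hk u hu => hU.2.1 k ((s.mem_Cc).1 hk).1 u hu)
    (s.Nc_zero hfaith hU hc hc1 h) k hk u hu

/-- `b` acts trivially on `Q` modulo `J` when `C_Q(b)` acts non-trivially. -/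
theorem bracket_mem {U : AddSubgroup V} (hU : s.IsMinQ U) {b : G} (hb : b ∈ s.A) (hb1 : b ≠ 1)
    (h : ¬ s.Cc b ≤ s.kerOn U) : ∀ y ∈ s.Q, y⁻¹ * (b * y * b⁻¹) ∈ s.kerOn U := by
  have hJ := s.kerOn_normal hU.2.1
  have hle : s.Q ≤ s.modSub (s.kerOn U) hJ b := by
    refine s.gen_le s.hQA s.hpQ ?_
    intro e he he1 y hy hey
    refine ⟨hy, ?_⟩
    by_cases heb : e ∈ zpowers b
    · have h1 : b * y = y * b := comm_of_comm_mem_zpowers s.hp (s.hexp b hb) hb1 heb he1 hey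
      have h2 : y⁻¹ * (b * y * b⁻¹) = 1 := by rw [h1]; group
      rw [h2]
      exact one_mem _
    · have hle' := s.Cc_le_kerOn hfaith hU hb hb1 h he heb
      have h1 : y ∈ s.Cc e := (s.mem_Cc).2 ⟨hy, hey⟩
      have h2 : b * y * b⁻¹ ∈ s.Cc e := by
        rw [s.mem_Cc]
        refine ⟨s.hQA b hb y hy, ?_⟩
        have heb' := s.A_comm he hb
        calc e * (b * y * b⁻¹) = b * (e * y) * b⁻¹ := by
              rw [← mul_assoc, ← mul_assoc, heb']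
              group
          _ = b * y * (e * b⁻¹) := by rw [hey]; group
          _ = b * y * (b⁻¹ * e) := by
              congr 1
              rw [mul_inv_eq_iff_eq_mul, mul_assoc, heb', inv_mul_cancel_left]
          _ = _ := by group
      exact mul_mem (inv_mem (hle' h1)) (hle' h2)
  exact fun y hy => (hle hy).2

end minimal

/-- The translate of an additive subgroup by a group element. -/
def transl (g : G) (U : AddSubgroup V) : AddSubgroup V where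
  carrier := {v | s.ρ g⁻¹ v ∈ U}
  zero_mem' := by
    change s.ρ g⁻¹ 0 ∈ U
    rw [map_zero]
    exact zero_mem _
  add_mem' := by
    intro a b ha hb
    change s.ρ g⁻¹ (a + b) ∈ U
    rw [map_add]
    exact add_mem ha hb
  neg_mem' := by
    intro a ha
    change s.ρ g⁻¹ (-a) ∈ U
    rw [map_neg]
    exact neg_mem ha

theorem mem_transl {g : G} {U : AddSubgroup V} {v : V} : v ∈ s.transl g U ↔ s.ρ g⁻¹ v ∈ U := Iff.rfl

theorem rho_mem_transl {g : G} {U : AddSubgroup V} {u : V} (hu : u ∈ U) :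
    s.ρ g u ∈ s.transl g U := by
  rw [mem_transl, rho_inv_left]
  exact hu

theorem isMinQ_transl {U : AddSubgroup V} (hU : s.IsMinQ U) {g : G}
    (hg1 : ∀ y ∈ s.Q, g * y * g⁻¹ ∈ s.Q) (hg2 : ∀ y ∈ s.Q, g⁻¹ * y * g ∈ s.Q) :
    s.IsMinQ (s.transl g U) := by
  obtain ⟨h0, hQ, hmin⟩ := hU
  refine ⟨?_, ?_, ?_⟩
  · intro h
    apply h0
    rw [eq_bot_iff]
    intro u hu
    have h1 : s.ρ g u ∈ s.transl g U := s.rho_mem_transl hu
    rw [h] at h1
    have h2 := congrArg (s.ρ g⁻¹) ((AddSubgroup.mem_bot).mp h1)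
    rw [rho_inv_left, map_zero] at h2
    rw [h2]
    exact zero_mem _
  · intro x hx u hu
    rw [mem_transl] at hu ⊢
    have h1 : s.ρ g⁻¹ (s.ρ x u) = s.ρ (g⁻¹ * x * g) (s.ρ g⁻¹ u) := by
      simp only [rho_mul, rho_inv_right]
    rw [h1]
    exact hQ _ (hg2 x hx) _ hu
  · intro U' hU' hQ'
    let U'' : AddSubgroup V := s.transl g⁻¹ U'
    have hU''U : U'' ≤ U := by
      intro v hv
      have h1 : s.ρ g⁻¹⁻¹ v ∈ U' := hv
      rw [inv_inv] at h1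
      have h2 := hU' h1
      rw [mem_transl, rho_inv_left] at h2
      exact h2
    have hU''Q : ∀ x ∈ s.Q, ∀ u ∈ U'', s.ρ x u ∈ U'' := by
      intro x hx u hu
      have h1 : s.ρ g⁻¹⁻¹ u ∈ U' := hu
      rw [inv_inv] at h1
      change s.ρ g⁻¹⁻¹ (s.ρ x u) ∈ U'
      rw [inv_inv]
      have h2 : s.ρ g (s.ρ x u) = s.ρ (g * x * g⁻¹) (s.ρ g u) := by
        simp only [rho_mul, rho_inv_left]
      rw [h2]
      exact hQ' _ (hg1 x hx) _ h1
    rcases hmin U'' hU''U hU''Q with h | h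
    · left
      rw [eq_bot_iff]
      intro v hv
      have h1 : s.ρ g⁻¹ v ∈ U'' := by
        change s.ρ g⁻¹⁻¹ (s.ρ g⁻¹ v) ∈ U'
        rw [inv_inv, rho_inv_right]
        exact hv
      rw [h] at h1
      have h2 := congrArg (s.ρ g) ((AddSubgroup.mem_bot).mp h1)
      rw [rho_inv_right, map_zero] at h2
      rw [h2]
      exact zero_mem _
    · right
      apply le_antisymm hU'
      intro v hv
      rw [mem_transl] at hv
      have h1 : s.ρ g⁻¹ v ∈ U'' := by rw [h]; exact hv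
      have h2 : s.ρ g⁻¹⁻¹ (s.ρ g⁻¹ v) ∈ U' := h1
      rwa [inv_inv, rho_inv_right] at h2

theorem mem_kerOn_transl {U : AddSubgroup V} {g : G}
    (hg1 : ∀ y ∈ s.Q, g * y * g⁻¹ ∈ s.Q) (hg2 : ∀ y ∈ s.Q, g⁻¹ * y * g ∈ s.Q) (z : G) :
    z ∈ s.kerOn (s.transl g U) ↔ g⁻¹ * z * g ∈ s.kerOn U := by
  constructor
  · rintro ⟨hz, hz'⟩
    refine ⟨hg2 z hz, fun u hu => ?_⟩
    rw [rho_mul, rho_mul, hz' _ (s.rho_mem_transl hu), rho_inv_left]
  · rintro ⟨hz, hz'⟩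
    have hzQ : z ∈ s.Q := by
      have := hg1 _ hz
      have e : g * (g⁻¹ * z * g) * g⁻¹ = z := by group
      rwa [e] at this
    refine ⟨hzQ, fun v hv => ?_⟩
    rw [mem_transl] at hv
    have h1 := hz' _ hv
    rw [rho_mul, rho_mul, rho_inv_right] at h1
    have h2 := congrArg (s.ρ g) h1
    rwa [rho_inv_right, rho_inv_right] at h2

/-- An element moving `Q` into `J` normalises `J`. -/
theorem mem_normalizer_of_bracket {J : Subgroup G} (hJQ : J ≤ s.Q) {x : G}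
    (hx1 : ∀ y ∈ s.Q, x * y * x⁻¹ ∈ s.Q) (hx2 : ∀ y ∈ s.Q, x⁻¹ * y * x ∈ s.Q)
    (hbr : ∀ y ∈ s.Q, y⁻¹ * (x * y * x⁻¹) ∈ J) : x ∈ normalizer (J : Set G) := by
  rw [Subgroup.mem_normalizer_iff]
  intro h
  constructor
  · intro hh
    have h1 := hbr h (hJQ hh)
    have e : x * h * x⁻¹ = h * (h⁻¹ * (x * h * x⁻¹)) := by group
    rw [e]
    exact mul_mem hh h1
  · intro hh
    have hhQ : h ∈ s.Q := by
      have := hx2 _ (hJQ hh)
      have e : x⁻¹ * (x * h * x⁻¹) * x = h := by group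
      rwa [e] at this
    have h1 := hbr h hhQ
    have e : h = (x * h * x⁻¹) * (h⁻¹ * (x * h * x⁻¹))⁻¹ := by group
    rw [e]
    exact mul_mem hh (inv_mem h1)

section T

variable (hfaith : ∀ x ∈ s.Q, (∀ v, s.ρ x v = v) → x = 1)
  (T : Subgroup G) {a : G} (ha : a ∈ s.A) (ha1 : a ≠ 1)
  (hTQ : ∀ t ∈ T, ∀ y ∈ s.Q, t * y * t⁻¹ ∈ s.Q)
  (hTa : ∀ t ∈ T, a * t = t * a)
  (hTA : ∀ e ∈ s.A, ∀ t ∈ T, e * t * e⁻¹ ∈ T)
  (hTp : s.p.Coprime (Nat.card T))
  (hT0 : ∀ t ∈ T, (∀ e ∈ s.A, e * t = t * e) → t = 1)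
  (hTc : ∀ t ∈ T, ∀ y ∈ s.Q, a * y = y * a → t * y = y * t)

include hfaith ha ha1 hTQ hTa hTA hTp hT0 hTc

/-- The main computation: `T` acts trivially on `Q` modulo the kernel on a minimal `U`. -/
theorem T_mod {U : AddSubgroup V} (hU : s.IsMinQ U) {t y : G} (ht : t ∈ T) (hy : y ∈ s.Q) :
    y⁻¹ * (t * y * t⁻¹) ∈ s.kerOn U := by
  have hJn := s.kerOn_normal hU.2.1
  have hTQ' : ∀ t ∈ T, ∀ y ∈ s.Q, t⁻¹ * y * t ∈ s.Q := by
    intro t ht y hy
    have := hTQ t⁻¹ (inv_mem ht) y hy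
    rwa [inv_inv] at this
  by_cases hCa : s.Cc a ≤ s.kerOn U
  swap
  · -- Case 1: `C_Q(a)` acts non-trivially
    have hbr := s.bracket_mem hfaith hU ha ha1 hCa
    have hle : s.Q ≤ s.modSub (s.kerOn U) hJn t := by
      refine s.gen_le s.hQA s.hpQ ?_
      intro e he he1 y hy hey
      refine ⟨hy, ?_⟩
      by_cases hea : e ∈ zpowers a
      · have h1 : a * y = y * a := comm_of_comm_mem_zpowers s.hp (s.hexp a ha) ha1 hea he1 hey
        have h2 := hTc t ht y hy h1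
        have h3 : y⁻¹ * (t * y * t⁻¹) = 1 := by rw [h2]; group
        rw [h3]
        exact one_mem _
      · have hle' := s.Cc_le_kerOn hfaith hU ha ha1 hCa he hea
        have hyCe : y ∈ s.Cc e := (s.mem_Cc).2 ⟨hy, hey⟩
        -- `a` is fixed-point-free on `C_Q(e)`
        have hmem : ∀ z : s.Cc e, z⁻¹.1 * (a * z.1 * a⁻¹) ∈ s.Cc e := by
          intro z
          have hz := (s.mem_Cc).1 z.2
          refine mul_mem (inv_mem z.2) ((s.mem_Cc).2 ⟨s.hQA a ha z.1 hz.1, ?_⟩)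
          have hae := s.A_comm he ha
          calc e * (a * z.1 * a⁻¹) = a * (e * z.1) * a⁻¹ := by
                rw [← mul_assoc, ← mul_assoc, hae]
                group
            _ = a * z.1 * (e * a⁻¹) := by rw [hz.2]; group
            _ = a * z.1 * (a⁻¹ * e) := by
                congr 1
                rw [mul_inv_eq_iff_eq_mul, mul_assoc, hae, inv_mul_cancel_left]
            _ = _ := by group
        let φ : s.Cc e → s.Cc e := fun z => ⟨z⁻¹.1 * (a * z.1 * a⁻¹), hmem z⟩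
        have hφ : Function.Injective φ := by
          intro z w hzw
          have h1 : z⁻¹.1 * (a * z.1 * a⁻¹) = w⁻¹.1 * (a * w.1 * a⁻¹) := congrArg Subtype.val hzw
          have h2 : a * (w.1 * z⁻¹.1) = (w.1 * z⁻¹.1) * a := by
            have h3 : (z.1)⁻¹ * (a * z.1) = (w.1)⁻¹ * (a * w.1) := by
              have h4 := congrArg (fun x => x * a) h1
              simpa [mul_assoc] using h4
            have h6 : (w.1) * ((z.1)⁻¹ * (a * z.1)) * (z.1)⁻¹ = a * (w.1 * (z.1)⁻¹) := by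
              rw [h3]; group
            rw [show z⁻¹.1 = (z.1)⁻¹ from rfl, ← h6]
            group
          have h7 : w.1 * z⁻¹.1 ∈ s.Cc e := mul_mem w.2 z⁻¹.2
          have h8 := (s.mem_Cc).1 h7
          have h9 := s.hQfix _ h8.1 (comm_of_comm_indep s.hp s.hcard s.hexp he he1 ha
            (fun hh => hea (mem_zpowers_of_mem_zpowers s.hp (s.hexp e he) he1 hh ha1)) h8.2 h2)
          have h10 : w.1 = z.1 := by
            rw [show z⁻¹.1 = (z.1)⁻¹ from rfl] at h9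
            exact mul_inv_eq_one.mp h9
          exact (Subtype.ext h10).symm
        obtain ⟨z, hz⟩ := Finite.injective_iff_surjective.mp hφ ⟨y, hyCe⟩
        have hzy : z⁻¹.1 * (a * z.1 * a⁻¹) = y := congrArg Subtype.val hz
        have hzQ := ((s.mem_Cc).1 z.2).1
        have h1 := hbr (t * z.1 * t⁻¹) (hTQ t ht z.1 hzQ)
        have hat := hTa t ht
        have hat' : a⁻¹ * t⁻¹ = t⁻¹ * a⁻¹ := by
          rw [← mul_inv_rev, ← mul_inv_rev, hat]
        have e1 : t * y * t⁻¹ = (t * z.1 * t⁻¹)⁻¹ * (a * (t * z.1 * t⁻¹) * a⁻¹) := by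
          rw [← hzy, show z⁻¹.1 = (z.1)⁻¹ from rfl]
          calc t * ((z.1)⁻¹ * (a * z.1 * a⁻¹)) * t⁻¹
              = t * (z.1)⁻¹ * t⁻¹ * ((t * a) * z.1 * (a⁻¹ * t⁻¹)) := by group
            _ = t * (z.1)⁻¹ * t⁻¹ * ((a * t) * z.1 * (t⁻¹ * a⁻¹)) := by rw [← hat, hat']
            _ = _ := by group
        rw [← e1] at h1
        exact mul_mem (inv_mem (hle' hyCe)) h1
    exact (hle hy).2
  -- Case 2
  by_cases hJQ : s.Q ≤ s.kerOn U
  · exact mul_mem (inv_mem (hJQ hy)) (hJQ (hTQ t ht y hy))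
  obtain ⟨b, hb, hb1, y₀, hy₀, hby₀, hy₀J⟩ : ∃ b ∈ s.A, b ≠ 1 ∧ ∃ x ∈ s.Q, b * x = x * b ∧
      x ∉ s.kerOn U := by
    by_contra hcon
    push Not at hcon
    exact hJQ (s.gen_le s.hQA s.hpQ (fun c hc hc1 x hx hxc => hcon c hc hc1 x hx hxc))
  have hCb : ¬ s.Cc b ≤ s.kerOn U := fun h => hy₀J (h ((s.mem_Cc).2 ⟨hy₀, hby₀⟩))
  have hba : b ∉ zpowers a := by
    intro hba
    apply hCb
    intro x hx
    have hx' := (s.mem_Cc).1 hx
    exact hCa ((s.mem_Cc).2 ⟨hx'.1, comm_of_comm_mem_zpowers s.hp (s.hexp a ha) ha1 hba hb1 hx'.2⟩)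
  have hbr := s.bracket_mem hfaith hU hb hb1 hCb
  have hAQ' : ∀ e ∈ s.A, ∀ y ∈ s.Q, e⁻¹ * y * e ∈ s.Q := by
    intro e he y hy
    have := s.hQA e⁻¹ (inv_mem he) y hy
    rwa [inv_inv] at this
  have hbN : b ∈ normalizer (s.kerOn U : Set G) :=
    s.mem_normalizer_of_bracket (s.kerOn_le U) (s.hQA b hb) (hAQ' b hb) hbr
  -- the key claim
  have hclaim : ∀ t ∈ T, t⁻¹ * (b * t * b⁻¹) ∈ normalizer (s.kerOn U : Set G) := by
    intro t ht
    have hUt := s.isMinQ_transl hU (hTQ t ht) (hTQ' t ht)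
    have hker := s.mem_kerOn_transl (U := U) (hTQ t ht) (hTQ' t ht)
    -- `Q` does not act trivially on the translate
    have hJtQ : ¬ s.Q ≤ s.kerOn (s.transl t U) := by
      intro h
      apply hJQ
      intro x hx
      have h1 := h (hTQ t ht x hx)
      rw [hker] at h1
      have e : t⁻¹ * (t * x * t⁻¹) * t = x := by group
      rwa [e] at h1
    obtain ⟨c, hc, hc1, y₁, hy₁, hcy₁, hy₁J⟩ : ∃ c ∈ s.A, c ≠ 1 ∧ ∃ x ∈ s.Q, c * x = x * c ∧
        x ∉ s.kerOn (s.transl t U) := by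
      by_contra hcon
      push Not at hcon
      exact hJtQ (s.gen_le s.hQA s.hpQ (fun c hc hc1 x hx hxc => hcon c hc hc1 x hx hxc))
    have hCc : ¬ s.Cc c ≤ s.kerOn (s.transl t U) := fun h => hy₁J (h ((s.mem_Cc).2 ⟨hy₁, hcy₁⟩))
    have hCaJt : s.Cc a ≤ s.kerOn (s.transl t U) := by
      intro x hx
      have hx' := (s.mem_Cc).1 hx
      rw [hker]
      have h1 := hTc t⁻¹ (inv_mem ht) x hx'.1 hx'.2
      have e : t⁻¹ * x * t = x := by rw [h1]; group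
      rw [e]
      exact hCa hx
    have hca : c ∉ zpowers a := by
      intro hca
      apply hCc
      intro x hx
      have hx' := (s.mem_Cc).1 hx
      exact hCaJt ((s.mem_Cc).2 ⟨hx'.1,
        comm_of_comm_mem_zpowers s.hp (s.hexp a ha) ha1 hca hc1 hx'.2⟩)
    have hbrc := s.bracket_mem hfaith hUt hc hc1 hCc
    have hcN := s.mem_normalizer_of_bracket (s.kerOn_le (s.transl t U)) (s.hQA c hc)
      (hAQ' c hc) hbrc
    -- translate
    have hnc : t⁻¹ * c * t ∈ normalizer (s.kerOn U : Set G) := by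
      rw [Subgroup.mem_normalizer_iff]
      intro h
      have h1 := (Subgroup.mem_normalizer_iff.mp hcN) (t * h * t⁻¹)
      rw [hker, hker] at h1
      have e1 : t⁻¹ * (t * h * t⁻¹) * t = h := by group
      have e2 : t⁻¹ * (c * (t * h * t⁻¹) * c⁻¹) * t = t⁻¹ * c * t * h * (t⁻¹ * c * t)⁻¹ := by group
      rw [e1, e2] at h1
      exact h1
    obtain ⟨u, v, huv⟩ := exists_pow_mul_pow s.hp s.hcard s.hexp ha ha1 hc hca b hb
    have hcv : c ^ v = (a ^ u)⁻¹ * b := by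
      rw [huv]; group
    have hn : (t⁻¹ * c * t) ^ v ∈ normalizer (s.kerOn U : Set G) := pow_mem hnc v
    have hnv : (t⁻¹ * c * t) ^ v = t⁻¹ * c ^ v * t := by
      have := conj_pow (a := t⁻¹) (b := c) (i := v)
      rwa [inv_inv] at this
    have hgcomm : Commute ((a ^ u)⁻¹) t⁻¹ := by
      have h1 : Commute a t := hTa t ht
      exact ((h1.pow_left u).inv_inv)
    set s₁ := t⁻¹ * (b * t * b⁻¹) with hs₁
    have hs₁T : s₁ ∈ T := mul_mem (inv_mem ht) (hTA b hb t ht)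
    have hgs : (a ^ u)⁻¹ * s₁ ∈ normalizer (s.kerOn U : Set G) := by
      have e : (a ^ u)⁻¹ * s₁ = (t⁻¹ * c * t) ^ v * b⁻¹ := by
        rw [hnv, hcv, hs₁]
        have e2 : t⁻¹ * ((a ^ u)⁻¹ * b) * t * b⁻¹ = (t⁻¹ * (a ^ u)⁻¹) * (b * t * b⁻¹) := by group
        rw [e2, ← hgcomm.eq]
        group
      rw [e]
      exact mul_mem hn (inv_mem hbN)
    have hgs_comm : Commute ((a ^ u)⁻¹) s₁ := by
      have h1 : Commute a s₁ := hTa s₁ hs₁T
      exact (h1.pow_left u).inv_left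
    have hgp : ((a ^ u)⁻¹) ^ s.p = 1 := by
      rw [inv_pow, ← pow_mul, mul_comm, pow_mul, s.hexp a ha, one_pow, inv_one]
    have hsp : s₁ ^ s.p ∈ normalizer (s.kerOn U : Set G) := by
      have h1 := pow_mem hgs s.p
      rw [hgs_comm.mul_pow, hgp, one_mul] at h1
      exact h1
    have hzp : s₁ ∈ zpowers (s₁ ^ s.p) := by
      rw [mem_zpowers_pow_iff]
      have h1 : orderOf s₁ ∣ Nat.card T := by
        have h2 := orderOf_dvd_natCard (⟨s₁, hs₁T⟩ : T)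
        rwa [Subgroup.orderOf_mk] at h2
      exact Nat.Coprime.coprime_dvd_right h1 hTp
    exact (Subgroup.zpowers_le.mpr hsp) hzp
  -- `T` normalises `J`
  have hφmem : ∀ z : T, (z : G)⁻¹ * (b * z * b⁻¹) ∈ T := fun z =>
    mul_mem (inv_mem z.2) (hTA b hb z z.2)
  let φ : T → T := fun z => ⟨(z : G)⁻¹ * (b * z * b⁻¹), hφmem z⟩
  have hφ : Function.Injective φ := by
    intro z w hzw
    have h1 : (z : G)⁻¹ * (b * z * b⁻¹) = (w : G)⁻¹ * (b * w * b⁻¹) := congrArg Subtype.val hzw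
    have h2 : (z : G)⁻¹ * (b * z) = (w : G)⁻¹ * (b * w) := by
      have h3 := congrArg (fun x => x * b) h1
      simpa [mul_assoc] using h3
    have h4 : b * ((w : G) * (z : G)⁻¹) = ((w : G) * (z : G)⁻¹) * b := by
      have h5 : (w : G) * ((z : G)⁻¹ * (b * z)) * (z : G)⁻¹ = b * ((w : G) * (z : G)⁻¹) := by
        rw [h2]; group
      rw [← h5]; group
    have h6 : (w : G) * (z : G)⁻¹ ∈ T := mul_mem w.2 (inv_mem z.2)
    have h7 := hT0 _ h6 (comm_of_comm_indep s.hp s.hcard s.hexp ha ha1 hb hba (hTa _ h6) h4)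
    have h8 : (w : G) = z := mul_inv_eq_one.mp h7
    exact (Subtype.ext h8).symm
  have hφs := Finite.injective_iff_surjective.mp hφ
  have hTN : ∀ t ∈ T, t ∈ normalizer (s.kerOn U : Set G) := by
    intro t ht
    obtain ⟨z, hz⟩ := hφs ⟨t, ht⟩
    have h1 : (z : G)⁻¹ * (b * z * b⁻¹) = t := congrArg Subtype.val hz
    rw [← h1]
    exact hclaim z z.2
  -- conclusion of Case 2
  obtain ⟨s₀, hs₀⟩ := hφs ⟨t, ht⟩
  have hs₀t : (s₀ : G)⁻¹ * (b * s₀ * b⁻¹) = t := congrArg Subtype.val hs₀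
  set y₁ := b⁻¹ * y * b with hy₁
  have hy₁Q : y₁ ∈ s.Q := hAQ' b hb y hy
  set y₂ := (s₀ : G) * y₁ * (s₀ : G)⁻¹ with hy₂
  have hy₂Q : y₂ ∈ s.Q := hTQ s₀ s₀.2 y₁ hy₁Q
  have hj₁ := hbr y₂ hy₂Q
  have hj₂ := hbr y₁ hy₁Q
  have hj₁' : (s₀ : G)⁻¹ * (y₂⁻¹ * (b * y₂ * b⁻¹)) * s₀ ∈ s.kerOn U := by
    have := (Subgroup.mem_normalizer_iff.mp (hTN _ (inv_mem s₀.2)) _).1 hj₁
    rwa [inv_inv] at this
  have e : y⁻¹ * (t * y * t⁻¹) =
      (y₁⁻¹ * (b * y₁ * b⁻¹))⁻¹ * ((s₀ : G)⁻¹ * (y₂⁻¹ * (b * y₂ * b⁻¹)) * s₀) := by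
    rw [← hs₀t, hy₂, hy₁]
    group
  rw [e]
  exact mul_mem (inv_mem hj₂) hj₁'

omit hfaith ha ha1 hTQ hTa hTA hTp hT0 hTc in
/-- The common kernel on the minimal `Q`-invariant subgroups. -/
def radQ : Subgroup G where
  carrier := {x | x ∈ s.Q ∧ ∀ U, s.IsMinQ U → x ∈ s.kerOn U}
  one_mem' := ⟨one_mem _, fun U _ => one_mem _⟩
  mul_mem' := by
    rintro a b ⟨ha, ha'⟩ ⟨hb, hb'⟩
    exact ⟨mul_mem ha hb, fun U hU => mul_mem (ha' U hU) (hb' U hU)⟩
  inv_mem' := by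
    rintro a ⟨ha, ha'⟩
    exact ⟨inv_mem ha, fun U hU => inv_mem (ha' U hU)⟩

omit hfaith ha ha1 hTQ hTa hTA hTp hT0 hTc in
/-- The radical acts trivially. -/
theorem radQ_trivial [Finite V] {x : G} (hx : x ∈ s.radQ) (v : V) : s.ρ x v = v := by
  have hRn : ∀ y ∈ s.Q, ∀ k ∈ s.radQ, y⁻¹ * k * y ∈ s.radQ := by
    intro y hy k hk
    refine ⟨mul_mem (mul_mem (inv_mem hy) hk.1) hy, fun U hU => ?_⟩
    have := s.kerOn_normal hU.2.1 y⁻¹ (inv_mem hy) k (hk.2 U hU)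
    rwa [inv_inv] at this
  let Y : AddSubgroup V :=
    { carrier := {v | sumOn s.ρ s.radQ v = 0}
      zero_mem' := sumOn_zero s.ρ s.radQ
      add_mem' := by
        intro a b ha hb
        change sumOn s.ρ s.radQ (a + b) = 0
        rw [sumOn_add, show sumOn s.ρ s.radQ a = 0 from ha, show sumOn s.ρ s.radQ b = 0 from hb,
          add_zero]
      neg_mem' := by
        intro a ha
        change sumOn s.ρ s.radQ (-a) = 0
        have h1 := sumOn_sub s.ρ s.radQ 0 a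
        rw [zero_sub, show sumOn s.ρ s.radQ a = 0 from ha, sumOn_zero, sub_zero] at h1
        exact h1 }
  have hYmem : ∀ {w : V}, w ∈ Y ↔ sumOn s.ρ s.radQ w = 0 := Iff.rfl
  have hYQ : ∀ y ∈ s.Q, ∀ u ∈ Y, s.ρ y u ∈ Y := by
    intro y hy u hu
    rw [hYmem, sumOn_conj s.ρ s.radQ y (hRn y hy), hYmem.1 hu, map_zero]
  have hY0 : Y = ⊥ := by
    by_contra hne
    haveI : Finite (AddSubgroup V) :=
      Finite.of_injective (fun U : AddSubgroup V => (U : Set V)) SetLike.coe_injective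
    obtain ⟨U, hU⟩ := (Set.toFinite {U : AddSubgroup V | U ≠ ⊥ ∧ U ≤ Y ∧
      ∀ x ∈ s.Q, ∀ u ∈ U, s.ρ x u ∈ U}).exists_minimal ⟨Y, hne, le_rfl, hYQ⟩
    have hUmin : s.IsMinQ U := by
      refine ⟨hU.prop.1, hU.prop.2.2, fun U' hU' hU'Q => ?_⟩
      by_cases h0 : U' = ⊥
      · exact Or.inl h0
      · right
        exact le_antisymm hU' (hU.le_of_le ⟨h0, hU'.trans hU.prop.2.1, hU'Q⟩ hU')
    apply hU.prop.1
    rw [eq_bot_iff]
    intro u hu
    have h1 : ∀ z ∈ s.radQ, s.ρ z u = u := fun z hz => (hz.2 U hUmin).2 u hu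
    have h2 := sumOn_of_fixed s.ρ s.radQ h1
    rw [hYmem.1 (hU.prop.2.1 hu)] at h2
    rw [s.nsmul_inj_of_dvd (H := s.radQ) (fun _ h => h.1) u h2.symm]
    exact zero_mem _
  have h3 : v - s.ρ x v ∈ Y := by
    rw [hYmem, sumOn_sub, sumOn_rho_right s.ρ s.radQ hx, sub_self]
  rw [hY0, AddSubgroup.mem_bot, sub_eq_zero] at h3
  exact h3.symm

/-- The main result: `T` centralises `Q`. -/
theorem T_central [Finite V] {t y : G} (ht : t ∈ T) (hy : y ∈ s.Q) : t * y = y * t := by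
  have h1 : y⁻¹ * (t * y * t⁻¹) ∈ s.radQ :=
    ⟨mul_mem (inv_mem hy) (hTQ t ht y hy), fun U hU =>
      s.T_mod hfaith T ha ha1 hTQ hTa hTA hTp hT0 hTc hU ht hy⟩
  have h2 := hfaith _ h1.1 (fun v => s.radQ_trivial h1 v)
  rw [inv_mul_eq_one, eq_comm, mul_inv_eq_iff_eq_mul] at h2
  exact h2

end T

end WSet

end Cfsg.Agent.Lib.Ward
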