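import Mathlib
import Cfsg.Agent.Lib.Core.Basic
import Cfsg.Agent.Lib.Core.Solvable

/-!
# A nilpotency criterion

A finite solvable group in which every Sylow `s`-subgroup centralises `O_q` for all primes
`q ≠ s` is nilpotent.
-/

set_option autoImplicit false

namespace Cfsg.Agent.Lib.Ward

open Cfsg Cfsg.Agent.Lib.Core Subgroup

theorem nilpotent_of_sylow_centralizes {Γ : Type*} [Group Γ] [Finite Γ] (hsol : Group.IsSolvable Γ)
    (H : ∀ s q : ℕ, s.Prime → q.Prime → q ≠ s → ∀ S : Sylow s Γ, ∀ x ∈ (S : Subgroup Γ),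
      ∀ y ∈ pCore q Γ, x * y = y * x) :
    Group.IsNilpotent Γ := by
  by_contra hn
  set F : Subgroup Γ := fittingSubgroup Γ with hFdef
  haveI hFnorm : F.Normal := fittingSubgroup_normal Γ
  have hF : F ≠ ⊤ := by
    intro h
    apply hn
    have h1 : Group.IsNilpotent F := isNilpotent_fittingSubgroup Γ
    rw [h] at h1
    exact Group.nilpotent_of_mulEquiv (Subgroup.topEquiv (G := Γ))
  haveI : Nontrivial (Γ ⧸ F) := QuotientGroup.nontrivial_iff.mpr hF
  haveI : Group.IsSolvable (Γ ⧸ F) := inferInstance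
  obtain ⟨s, hs, hne⟩ := exists_prime_pCore_ne_bot (G := Γ ⧸ F)
  haveI : Fact s.Prime := ⟨hs⟩
  let π : Γ →* Γ ⧸ F := QuotientGroup.mk' F
  have hπ : Function.Surjective π := QuotientGroup.mk'_surjective F
  have hπker : π.ker = F := QuotientGroup.ker_mk' F
  let D : Subgroup Γ := (pCore s (Γ ⧸ F)).comap π
  haveI hDn : D.Normal := (pCore_normal s (Γ ⧸ F)).comap π
  have hFD : F ≤ D := by
    intro x hx
    have : π x = 1 := by
      rw [← MonoidHom.mem_ker, hπker]
      exact hx
    change π x ∈ pCore s (Γ ⧸ F)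
    rw [this]
    exact one_mem _
  have hDF : ¬ D ≤ F := by
    intro hle
    apply hne
    rw [eq_bot_iff]
    intro y hy
    obtain ⟨x, rfl⟩ := hπ y
    have h1 : x ∈ F := hle hy
    have h2 : x ∈ π.ker := by rw [hπker]; exact h1
    rw [Subgroup.mem_bot]
    exact h2
  let P₀ : Sylow s D := default
  let P : Subgroup Γ := (P₀ : Subgroup D).map D.subtype
  have hPs : IsPGroup s P := P₀.isPGroup'.map _
  obtain ⟨S, hS⟩ := hPs.exists_le_sylow
  have hPD : P ≤ D := by
    rintro _ ⟨x, -, rfl⟩
    exact x.2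
  have h1 : pCore s Γ ≤ P := by
    intro x hx
    have hxD : x ∈ D := hFD (pCore_le_fittingSubgroup s hx)
    have hN : ((pCore s Γ).subgroupOf D).Normal := (pCore_normal s Γ).subgroupOf D
    have hNp : IsPGroup s ((pCore s Γ).subgroupOf D) := by
      intro g
      obtain ⟨k, hk⟩ := pCore_isPGroup s Γ ⟨g.1.1, g.2⟩
      refine ⟨k, ?_⟩
      ext
      simpa using congrArg Subtype.val hk
    have h2 : (pCore s Γ).subgroupOf D ≤ (P₀ : Subgroup D) :=
      (le_pCore hN hNp).trans (pCore_le_sylow P₀)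
    exact ⟨⟨x, hxD⟩, h2 (Subgroup.mem_subgroupOf.mpr hx), rfl⟩
  have hFN : F ≤ normalizer (P : Set Γ) := by
    rw [hFdef, fittingSubgroup_eq_iSup_pCore]
    refine iSup_le fun q => ?_
    by_cases hq : (q : ℕ) = s
    · rw [hq]
      exact h1.trans Subgroup.le_normalizer
    · intro y hy
      rw [Subgroup.mem_normalizer_iff]
      intro x
      constructor
      · intro hx
        have h2 := H s q hs q.2 hq S x (hS hx) y hy
        have h3 : y * x * y⁻¹ = x := by rw [← h2]; group
        rw [h3]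
        exact hx
      · intro hx
        have h2 := H s q hs q.2 hq S _ (hS hx) y hy
        have h3 : y * x * y⁻¹ * y = y * x := by group
        rw [h3] at h2
        have h4 : x = y * x * y⁻¹ := mul_left_cancel h2
        rw [← h4] at hx
        exact hx
  -- `D = F P`
  have hDle : D ≤ F ⊔ P := by
    let K : Subgroup D := (F ⊔ P).subgroupOf D
    have hK1 : (P₀ : Subgroup D) ≤ K := by
      intro x hx
      rw [Subgroup.mem_subgroupOf]
      exact (le_sup_right : P ≤ F ⊔ P) ⟨x, hx, rfl⟩
    have hK2 : F.subgroupOf D ≤ K := by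
      intro x hx
      rw [Subgroup.mem_subgroupOf] at hx ⊢
      exact (le_sup_left : F ≤ F ⊔ P) hx
    let f : D →* Γ ⧸ F := π.comp D.subtype
    have hfker : f.ker = F.subgroupOf D := by
      ext x
      rw [MonoidHom.mem_ker, Subgroup.mem_subgroupOf]
      have h0 : (x : Γ) ∈ F ↔ (x : Γ) ∈ π.ker := by rw [hπker]
      rw [h0, MonoidHom.mem_ker]
      rfl
    have hfr : IsPGroup s f.range := by
      have h3 : f.range ≤ pCore s (Γ ⧸ F) := by
        rintro _ ⟨x, rfl⟩
        exact x.2
      exact (pCore_isPGroup s (Γ ⧸ F)).to_le h3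
    obtain ⟨k, hk⟩ := IsPGroup.iff_card.mp hfr
    have h3 : (F.subgroupOf D).index = s ^ k := by
      rw [← hfker, Subgroup.index_ker, hk]
    have h4 : K.index ∣ s ^ k := h3 ▸ Subgroup.index_dvd_of_le hK2
    have h5 : K.index ∣ (P₀ : Subgroup D).index := Subgroup.index_dvd_of_le hK1
    have h6 : ¬ s ∣ K.index := fun h => P₀.not_dvd_index (h.trans h5)
    obtain ⟨j, -, hj⟩ := (Nat.dvd_prime_pow hs).1 h4
    have h7 : K.index = 1 := by
      rcases j with _ | j
      · simpa using hj
      · exfalso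
        apply h6
        rw [hj]
        exact dvd_pow_self s (Nat.succ_ne_zero j)
    have h8 : K = ⊤ := Subgroup.index_eq_one.mp h7
    intro x hx
    have h9 : (⟨x, hx⟩ : D) ∈ K := by rw [h8]; exact Subgroup.mem_top _
    exact Subgroup.mem_subgroupOf.mp h9
  have hDN : D ≤ normalizer (P : Set Γ) := hDle.trans (sup_le hFN Subgroup.le_normalizer)
  -- `P₀` is normal in `D`
  haveI hP₀n : (P₀ : Subgroup D).Normal := by
    constructor
    intro x hx g
    have h2 : (x : Γ) ∈ P := ⟨x, hx, rfl⟩
    have h3 := ((Subgroup.mem_normalizer_iff.mp (hDN g.2)) x).1 h2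
    obtain ⟨y, hy, hy2⟩ := h3
    have h4 : y = g * x * g⁻¹ := by
      apply Subtype.ext
      simpa using hy2
    rw [← h4]
    exact hy
  haveI hc : (P₀ : Subgroup D).Characteristic := Sylow.characteristic_of_normal P₀ hP₀n
  have hPn : P.Normal := ConjAct.normal_of_characteristic_of_normal
  have hPF : P ≤ F := (le_pCore hPn hPs).trans (pCore_le_fittingSubgroup s)
  exact hDF (hDle.trans (sup_le le_rfl hPF))

end Cfsg.Agent.Lib.Ward
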