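import Mathlib
import Cfsg.Agent.Lib.Ward.Core
import Cfsg.Agent.Lib.Ward.Fit
import Cfsg.Agent.Lib.Core.MinNormal2
import Cfsg.Agent.Lib.Hall.CoprimeSylow
import Cfsg.Agent.Lib.FrobThm.FixedPointFree
import Cfsg.Agent.Lib.OddLocal.CN
import Cfsg.Agent.Lib.Coprime.Kaz2
import Cfsg.Agent.Lib.Fpf4.Main

/-!
# The internal setting of Ward's theorem

`𝒢` a finite group, `N` a normal subgroup, `A` elementary abelian of order `p²`,
`p` prime to `|N|`, `C_N(A) = 1`.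
-/

set_option autoImplicit false
set_option linter.unusedSectionVars false

namespace Cfsg.Agent.Lib.Ward

open Cfsg Cfsg.Agent.Lib.Core Subgroup

universe u

/-- The internal setting. -/
structure WD (𝒢 : Type u) [Group 𝒢] where
  N : Subgroup 𝒢
  A : Subgroup 𝒢
  p : ℕ
  hN : N.Normal
  hp : p.Prime
  hcard : Nat.card A = p ^ 2
  hexp : ∀ x ∈ A, x ^ p = 1
  hcop : p.Coprime (Nat.card N)
  hfix : ∀ x ∈ N, (∀ a ∈ A, a * x = x * a) → x = 1

namespace WD

variable {𝒢 : Type u} [Group 𝒢] [Finite 𝒢] (d : WD 𝒢)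

/-- A `p`-subgroup acting on a coset of a `p'`-subgroup has a fixed point. -/
theorem exists_fixed_coset {p : ℕ} (hp : p.Prime) {H K : Subgroup 𝒢} (hH : IsPGroup p H)
    (hKn : K.Normal) (hKc : p.Coprime (Nat.card K)) {x : 𝒢}
    (hx : ∀ a ∈ H, x⁻¹ * (a * x * a⁻¹) ∈ K) :
    ∃ k ∈ K, ∀ a ∈ H, a * (x * k) = (x * k) * a := by
  haveI : Fact p.Prime := ⟨hp⟩
  have hmem : ∀ (a : H) (k : K), x⁻¹ * ((a : 𝒢) * (x * k) * (a : 𝒢)⁻¹) ∈ K := by
    intro a k
    have h1 : x⁻¹ * ((a : 𝒢) * (x * k) * (a : 𝒢)⁻¹) =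
        (x⁻¹ * ((a : 𝒢) * x * (a : 𝒢)⁻¹)) * ((a : 𝒢) * k * (a : 𝒢)⁻¹) := by group
    rw [h1]
    exact mul_mem (hx a a.2) (hKn.conj_mem _ k.2 _)
  letI act : MulAction H K :=
    { smul := fun a k => ⟨x⁻¹ * ((a : 𝒢) * (x * k) * (a : 𝒢)⁻¹), hmem a k⟩
      one_smul := by
        intro k
        apply Subtype.ext
        change x⁻¹ * (((1 : H) : 𝒢) * (x * k) * ((1 : H) : 𝒢)⁻¹) = k
        simp
      mul_smul := by
        intro a b k
        apply Subtype.ext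
        change x⁻¹ * (((a * b : H) : 𝒢) * (x * k) * ((a * b : H) : 𝒢)⁻¹) =
          x⁻¹ * ((a : 𝒢) * (x * (x⁻¹ * ((b : 𝒢) * (x * k) * (b : 𝒢)⁻¹))) * (a : 𝒢)⁻¹)
        simp only [Subgroup.coe_mul]
        group }
  have hnd : ¬ p ∣ Nat.card K := (Nat.Prime.coprime_iff_not_dvd hp).mp hKc
  obtain ⟨k, hk⟩ := hH.nonempty_fixed_point_of_prime_not_dvd_card K hnd
  refine ⟨k, k.2, fun a ha => ?_⟩
  have h1 := congrArg Subtype.val (hk ⟨a, ha⟩)
  change x⁻¹ * (a * (x * k) * a⁻¹) = k at h1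
  have h2 : a * (x * k) * a⁻¹ = x * k :=
    calc a * (x * k) * a⁻¹ = x * (x⁻¹ * (a * (x * k) * a⁻¹)) := by group
      _ = x * k := by rw [h1]
  exact mul_inv_eq_iff_eq_mul.mp h2

theorem isPGroup_A : IsPGroup d.p d.A := by
  haveI : Fact d.p.Prime := ⟨d.hp⟩
  exact IsPGroup.of_card d.hcard

theorem coprime_of_le {K : Subgroup 𝒢} (hK : K ≤ d.N) : d.p.Coprime (Nat.card K) :=
  Nat.Coprime.coprime_dvd_right (Subgroup.card_dvd_of_le hK) d.hcop

theorem inj_on_A {K : Subgroup 𝒢} (hK : K ≤ d.N) {a : 𝒢} (ha : a ∈ d.A) (haK : a ∈ K) : a = 1 := by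
  haveI : Fact d.p.Prime := ⟨d.hp⟩
  by_contra h1
  have h2 : orderOf a = d.p := orderOf_eq_prime (d.hexp a ha) h1
  have h3 : orderOf a ∣ Nat.card K := by
    have := orderOf_dvd_natCard (⟨a, haK⟩ : K)
    rwa [Subgroup.orderOf_mk] at this
  rw [h2] at h3
  have h4 := d.coprime_of_le hK
  exact d.hp.one_lt.ne' (Nat.Coprime.eq_one_of_dvd h4 h3)

/-- Passing to a quotient. -/
noncomputable def quot (K : Subgroup 𝒢) [hKn : K.Normal] (hK : K ≤ d.N) : WD (𝒢 ⧸ K) where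
  N := d.N.map (QuotientGroup.mk' K)
  A := d.A.map (QuotientGroup.mk' K)
  p := d.p
  hN := @Subgroup.Normal.map _ _ _ _ _ d.hN _ (QuotientGroup.mk'_surjective K)
  hp := d.hp
  hcard := by
    rw [← d.hcard]
    refine Nat.card_congr (Equiv.ofBijective
      (fun a : d.A => (⟨QuotientGroup.mk' K a.1, a.1, a.2, rfl⟩ : d.A.map (QuotientGroup.mk' K))) ⟨?_, ?_⟩).symm
    · intro a b hab
      have h1 : QuotientGroup.mk' K a.1 = QuotientGroup.mk' K b.1 := congrArg Subtype.val hab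
      have h2 : (a.1)⁻¹ * b.1 ∈ K := by
        have := QuotientGroup.eq.mp h1
        exact this
      have h3 := d.inj_on_A hK (mul_mem (inv_mem a.2) b.2) h2
      exact (Subtype.ext (inv_mul_eq_one.mp h3))
    · rintro ⟨_, a, ha, rfl⟩
      exact ⟨⟨a, ha⟩, rfl⟩
  hexp := by
    rintro _ ⟨a, ha, rfl⟩
    rw [← map_pow, d.hexp a ha, map_one]
  hcop := by
    refine Nat.Coprime.coprime_dvd_right ?_ d.hcop
    exact Subgroup.card_dvd_of_surjective _
      (MonoidHom.subgroupMap_surjective (QuotientGroup.mk' K) d.N)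
  hfix := by
    rintro _ ⟨x, hx, rfl⟩ hfixx
    have h1 : ∀ a ∈ d.A, x⁻¹ * (a * x * a⁻¹) ∈ K := by
      intro a ha
      have h2 := hfixx _ ⟨a, ha, rfl⟩
      have h3 : QuotientGroup.mk' K x = QuotientGroup.mk' K (a * x * a⁻¹) := by
        rw [map_mul, map_mul, map_inv, h2]
        group
      exact QuotientGroup.eq.mp h3
    obtain ⟨k, hk, hfx⟩ := exists_fixed_coset d.hp d.isPGroup_A hKn (d.coprime_of_le hK) h1
    have h4 := d.hfix _ (mul_mem hx (hK hk)) hfx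
    have h5 : x = k⁻¹ := eq_inv_of_mul_eq_one_left h4
    rw [h5]
    exact (QuotientGroup.eq_one_iff _).2 (inv_mem hk)

theorem quot_N (K : Subgroup 𝒢) [K.Normal] (hK : K ≤ d.N) :
    (d.quot K hK).N = d.N.map (QuotientGroup.mk' K) := rfl

theorem quot_A (K : Subgroup 𝒢) [K.Normal] (hK : K ≤ d.N) :
    (d.quot K hK).A = d.A.map (QuotientGroup.mk' K) := rfl

/-- There is an element of `A` independent of a given one. -/
theorem exists_indep {c : 𝒢} (hc : c ∈ d.A) : ∃ b ∈ d.A, b ∉ zpowers c := by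
  by_contra hcon
  push Not at hcon
  have hle : d.A ≤ zpowers c := hcon
  have h1 := Subgroup.card_le_of_le hle
  rw [Nat.card_zpowers, d.hcard] at h1
  have h2 : orderOf c ≤ d.p := Nat.le_of_dvd d.hp.pos (orderOf_dvd_of_pow_eq_one (d.hexp c hc))
  have h3 := d.hp.two_le
  nlinarith

/-- The centraliser of a non-identity element of `A` is nilpotent. -/
theorem nilpotent_inf {c : 𝒢} (hc : c ∈ d.A) (hc1 : c ≠ 1) :
    Group.IsNilpotent (d.N ⊓ centralizer {c} : Subgroup 𝒢) := by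
  haveI := d.hN
  obtain ⟨b, hb, hbc⟩ := d.exists_indep hc
  have hbc' : b * c = c * b := comm_of_card d.hp d.hcard hb hc
  have hmem : ∀ (g : 𝒢), (g * c = c * g) → ∀ x : (d.N ⊓ centralizer {c} : Subgroup 𝒢),
      g * x.1 * g⁻¹ ∈ (d.N ⊓ centralizer {c} : Subgroup 𝒢) := by
    intro g hg x
    refine Subgroup.mem_inf.mpr ⟨d.hN.conj_mem _ (Subgroup.mem_inf.mp x.2).1 _, ?_⟩
    rw [Subgroup.mem_centralizer_singleton_iff]
    have hx : x.1 * c = c * x.1 :=
      (Subgroup.mem_centralizer_singleton_iff.mp (Subgroup.mem_inf.mp x.2).2)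
    have hg' : g⁻¹ * c = c * g⁻¹ := by
      rw [inv_mul_eq_iff_eq_mul, ← mul_assoc, hg, mul_assoc, mul_inv_cancel, mul_one]
    calc g * x.1 * g⁻¹ * c = g * x.1 * (g⁻¹ * c) := by group
      _ = g * x.1 * (c * g⁻¹) := by rw [hg']
      _ = g * (x.1 * c) * g⁻¹ := by group
      _ = g * (c * x.1) * g⁻¹ := by rw [hx]
      _ = (g * c) * x.1 * g⁻¹ := by group
      _ = (c * g) * x.1 * g⁻¹ := by rw [hg]
      _ = _ := by group
  have hbc'' : b⁻¹ * c = c * b⁻¹ := by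
    rw [inv_mul_eq_iff_eq_mul, ← mul_assoc, hbc', mul_assoc, mul_inv_cancel, mul_one]
  let α : (d.N ⊓ centralizer {c} : Subgroup 𝒢) ≃* (d.N ⊓ centralizer {c} : Subgroup 𝒢) :=
    { toFun := fun x => ⟨b * x.1 * b⁻¹, hmem b hbc' x⟩
      invFun := fun x => ⟨b⁻¹ * x.1 * b⁻¹⁻¹, hmem b⁻¹ hbc'' x⟩
      left_inv := fun x => by
        apply Subtype.ext
        change b⁻¹ * (b * x.1 * b⁻¹) * b⁻¹⁻¹ = x.1
        group
      right_inv := fun x => by
        apply Subtype.ext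
        change b * (b⁻¹ * x.1 * b⁻¹⁻¹) * b⁻¹ = x.1
        group
      map_mul' := fun x y => by
        apply Subtype.ext
        change b * (x.1 * y.1) * b⁻¹ = (b * x.1 * b⁻¹) * (b * y.1 * b⁻¹)
        group }
  have hα : ∀ x, (α x).1 = b * x.1 * b⁻¹ := fun _ => rfl
  refine Cfsg.Agent.Lib.FrobThm.fpf_nilpotent d.hp α ?_ ?_
  · intro x hx
    have h1 : b * x.1 * b⁻¹ = x.1 := congrArg Subtype.val hx
    have h2 : b * x.1 = x.1 * b := mul_inv_eq_iff_eq_mul.mp h1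
    have h3 : c * x.1 = x.1 * c :=
      (Subgroup.mem_centralizer_singleton_iff.mp (Subgroup.mem_inf.mp x.2).2).symm
    have h4 := d.hfix _ (Subgroup.mem_inf.mp x.2).1 (comm_of_comm_indep d.hp d.hcard d.hexp hc hc1 hb hbc h3 h2)
    exact Subtype.ext h4
  · intro x
    have hit : ∀ i : ℕ, ((α^[i]) x).1 = b ^ i * x.1 * (b ^ i)⁻¹ := by
      intro i
      induction i with
      | zero => simp
      | succ i ih =>
        rw [Function.iterate_succ_apply', hα, ih, pow_succ']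
        group
    apply Subtype.ext
    rw [hit, d.hexp b hb]
    simp

end WD

end Cfsg.Agent.Lib.Ward
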