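import Mathlib
import Cfsg.Agent.Lib.Ward.Data

/-!
# Ward's theorem: the irreducible case
-/

set_option autoImplicit false
set_option linter.unusedSectionVars false

namespace Cfsg.Agent.Lib.Ward

open Cfsg Cfsg.Agent.Lib.Core Subgroup

universe u

namespace WD

variable {𝒢 : Type u} [Group 𝒢] [Finite 𝒢] (d : WD 𝒢)
variable {V : Type*} [AddCommGroup V] [Finite V] (ρ : 𝒢 →* AddMonoid.End V)

/-- A `q`-group acting on a non-zero `q`-torsion module has a non-zero fixed vector. -/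
theorem exists_fixed_vector {q : ℕ} (hq : q.Prime) {Q : Subgroup 𝒢} (hQ : IsPGroup q Q)
    (hqV : ∀ v : V, q • v = 0) {v₀ : V} (hv₀ : v₀ ≠ 0) : ∃ v : V, v ≠ 0 ∧ ∀ x ∈ Q, ρ x v = v := by
  haveI : Fact q.Prime := ⟨hq⟩
  letI act : MulAction Q V :=
    { smul := fun x v => ρ x.1 v
      one_smul := fun v => rho_one ρ v
      mul_smul := fun x y v => rho_mul ρ x.1 y.1 v }
  have h1 := hQ.card_modEq_card_fixedPoints V
  have h2 : q ∣ Nat.card V := by
    have h3 : addOrderOf v₀ = q := addOrderOf_eq_prime (hqV v₀) hv₀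
    rw [← h3]
    exact addOrderOf_dvd_natCard v₀
  have h3 : q ∣ Nat.card (MulAction.fixedPoints Q V) :=
    (Nat.modEq_zero_iff_dvd.mp (h1.symm.trans (Nat.modEq_zero_iff_dvd.mpr h2)))
  have h0 : (0 : V) ∈ MulAction.fixedPoints Q V := fun x => map_zero (ρ x.1)
  have h4 : 0 < Nat.card (MulAction.fixedPoints Q V) := by
    haveI : Nonempty (MulAction.fixedPoints Q V) := ⟨⟨0, h0⟩⟩
    exact Nat.card_pos
  have h5 : 1 < Nat.card (MulAction.fixedPoints Q V) :=
    lt_of_lt_of_le hq.one_lt (Nat.le_of_dvd h4 h3)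
  haveI : Nontrivial (MulAction.fixedPoints Q V) := Finite.one_lt_card_iff_nontrivial.mp h5
  obtain ⟨w, hw⟩ := exists_ne (⟨0, h0⟩ : MulAction.fixedPoints Q V)
  refine ⟨w.1, fun h => hw (Subtype.ext h), fun x hx => ?_⟩
  exact w.2 ⟨x, hx⟩

variable [hsol : Group.IsSolvable 𝒢]

/-- **The irreducible case of Ward's theorem.** -/
theorem nilpotent_of_irreducible {r : ℕ} (hr : r.Prime) (hrV : ∀ v : V, r • v = 0)
    (hfaith : ∀ x ∈ d.N, (∀ v, ρ x v = v) → x = 1)
    (hirr : ∀ W : AddSubgroup V, (∀ g : 𝒢, ∀ w ∈ W, ρ g w ∈ W) → W = ⊥ ∨ W = ⊤)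
    (hI : ∀ c ∈ d.A, c ≠ 1 → ∀ x ∈ d.N, c * x = x * c → ¬ r ∣ orderOf x →
      ∀ v, ρ c v = v → ρ x v = v) :
    Group.IsNilpotent d.N := by
  haveI hNn := d.hN
  apply nilpotent_of_sylow_centralizes inferInstance
  intro s q hs hq hqs S x hx y hy
  haveI : Fact s.Prime := ⟨hs⟩
  haveI : Fact q.Prime := ⟨hq⟩
  let Q : Subgroup 𝒢 := (pCore q d.N).map d.N.subtype
  haveI hc : (pCore q d.N).Characteristic := pCore_characteristic q d.N
  haveI hQn : Q.Normal := ConjAct.normal_of_characteristic_of_normal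
  have hQN : Q ≤ d.N := by
    rintro _ ⟨z, -, rfl⟩
    exact z.2
  have hQq : IsPGroup q Q := (pCore_isPGroup q d.N).map _
  have hyQ : (y : 𝒢) ∈ Q := ⟨y, hy, rfl⟩
  by_cases hqr : q = r
  · -- `Q` is trivial
    subst hqr
    have hy1 : y = 1 := by
      apply Subtype.ext
      apply hfaith y.1 y.2
      by_cases hV : ∃ v₀ : V, v₀ ≠ 0
      · obtain ⟨v₀, hv₀⟩ := hV
        obtain ⟨v, hv0, hv⟩ := exists_fixed_vector ρ hq hQq hrV hv₀
        let W : AddSubgroup V :=
          { carrier := {w | ∀ z ∈ Q, ρ z w = w}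
            zero_mem' := fun z _ => map_zero _
            add_mem' := fun {a b} ha hb z hz => by rw [map_add, ha z hz, hb z hz]
            neg_mem' := fun {a} ha z hz => by rw [map_neg, ha z hz] }
        have hW : ∀ g : 𝒢, ∀ w ∈ W, ρ g w ∈ W := by
          intro g w hw z hz
          have h1 : ρ z (ρ g w) = ρ g (ρ (g⁻¹ * z * g) w) := by
            simp only [rho_mul, rho_inv_right]
          have h2 : g⁻¹ * z * g ∈ Q := by
            have := hQn.conj_mem z hz g⁻¹
            rwa [inv_inv] at this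
          rw [h1, hw _ h2]
        rcases hirr W hW with h | h
        · exfalso
          have h1 : v ∈ W := hv
          rw [h, AddSubgroup.mem_bot] at h1
          exact hv0 h1
        · intro w
          have h1 : w ∈ W := by rw [h]; exact AddSubgroup.mem_top _
          exact h1 _ hyQ
      · push Not at hV
        intro v
        rw [hV v, map_zero]
    rw [hy1, one_mul, mul_one]
  -- the main case
  let W : WSet 𝒢 V :=
    { A := d.A
      p := d.p
      hp := d.hp
      hcard := d.hcard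
      hexp := d.hexp
      Q := Q
      q := q
      hq := hq
      hQq := hQq
      hQA := fun a _ z hz => hQn.conj_mem z hz a
      hQfix := fun z hz h => d.hfix z (hQN hz) h
      hpQ := d.coprime_of_le hQN
      ρ := ρ
      r := r
      hr := hr
      hqr := hqr
      hrV := hrV
      hI := by
        intro c hc hc1 z hz hcz v hv
        refine hI c hc hc1 z (hQN hz) hcz ?_ v hv
        haveI : Fact r.Prime := ⟨hr⟩
        obtain ⟨k, hk⟩ := IsPGroup.iff_orderOf.mp hQq ⟨z, hz⟩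
        rw [Subgroup.orderOf_mk] at hk
        rw [hk]
        intro h
        exact hqr ((Nat.prime_dvd_prime_iff_eq hr hq).mp (hr.dvd_of_dvd_pow h)).symm }
  have hfaith' : ∀ z ∈ W.Q, (∀ v, W.ρ z v = v) → z = 1 := fun z hz h => hfaith z (hQN hz) h
  -- an invariant Sylow subgroup
  have hAN : d.A ≤ normalizer (d.N : Set 𝒢) := by
    rw [normalizer_eq_top]
    exact le_top
  have hcop : (Nat.card d.A).Coprime (Nat.card d.N) := by
    rw [d.hcard]
    exact Nat.Coprime.pow_left 2 d.hcop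
  obtain ⟨P, hP⟩ := Cfsg.Agent.Lib.Hall.exists_invariant_sylow d.A d.N hAN hcop
    (Or.inr inferInstance) s
  let S' : Subgroup 𝒢 := (P : Subgroup d.N).map d.N.subtype
  have hS'N : S' ≤ d.N := by
    rintro _ ⟨z, -, rfl⟩
    exact z.2
  have hS's : IsPGroup s S' := P.isPGroup'.map _
  have hS'A : ∀ a ∈ W.A, ∀ t ∈ S', a * t * a⁻¹ ∈ S' :=
    fun a ha t ht => (Subgroup.mem_normalizer_iff.mp (hP ha) t).1 ht
  -- the centraliser of `a` in `S'` centralises `Q`
  have hcent : ∀ a ∈ W.A, a ≠ 1 → ∀ t ∈ S', a * t = t * a → ∀ z ∈ Q, t * z = z * t := by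
    intro a ha ha1 t ht hat z hz
    let T : Subgroup 𝒢 := S' ⊓ centralizer {a}
    have hTmem : ∀ {t : 𝒢}, t ∈ T ↔ t ∈ S' ∧ a * t = t * a := by
      intro t
      change t ∈ S' ⊓ centralizer {a} ↔ _
      rw [Subgroup.mem_inf, Subgroup.mem_centralizer_singleton_iff]
      exact and_congr_right fun _ => eq_comm
    have hTN : T ≤ d.N := fun t ht => hS'N (hTmem.1 ht).1
    have hnil := d.nilpotent_inf (c := a) ha ha1
    refine W.T_central hfaith' T ha ha1 (fun t _ y hy => hQn.conj_mem y hy t)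
      (fun t ht => (hTmem.1 ht).2) ?_ (d.coprime_of_le hTN) ?_ ?_ (hTmem.2 ⟨ht, hat⟩) hz
    · intro e he t ht
      rw [hTmem] at ht ⊢
      refine ⟨hS'A e he t ht.1, ?_⟩
      have hea : e * a = a * e := comm_of_card d.hp d.hcard he ha
      have hea' : e⁻¹ * a = a * e⁻¹ := by
        rw [inv_mul_eq_iff_eq_mul, ← mul_assoc, hea, mul_assoc, mul_inv_cancel, mul_one]
      calc a * (e * t * e⁻¹) = (a * e) * t * e⁻¹ := by group
        _ = e * (a * t) * e⁻¹ := by rw [← hea]; group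
        _ = e * t * (a * e⁻¹) := by rw [ht.2]; group
        _ = e * t * (e⁻¹ * a) := by rw [hea']
        _ = _ := by group
    · intro t ht h
      exact d.hfix t (hTN ht) h
    · intro t ht y hy hay
      have ht' := hTmem.1 ht
      have hsub : ∀ {w : 𝒢}, w ∈ d.N → a * w = w * a →
          w ∈ (d.N ⊓ centralizer {a} : Subgroup 𝒢) := by
        intro w hw haw
        rw [Subgroup.mem_inf, Subgroup.mem_centralizer_singleton_iff]
        exact ⟨hw, haw.symm⟩
      obtain ⟨k, hk⟩ := IsPGroup.iff_orderOf.mp hS's ⟨t, ht'.1⟩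
      rw [Subgroup.orderOf_mk] at hk
      obtain ⟨j, hj⟩ := IsPGroup.iff_orderOf.mp hQq ⟨y, hy⟩
      rw [Subgroup.orderOf_mk] at hj
      refine Cfsg.Agent.Lib.OddLocal.comm_in_nilpotent hnil (hsub (hTN ht) ht'.2)
        (hsub (hQN hy) hay) hk ?_
      rw [hj]
      intro h
      exact hqs ((Nat.prime_dvd_prime_iff_eq hs hq).mp (hs.dvd_of_dvd_pow h)).symm
  have hS'C : S' ≤ centralizer (Q : Set 𝒢) := by
    refine W.gen_le hS'A (d.coprime_of_le hS'N) ?_
    intro c hc hc1 t ht hct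
    rw [Subgroup.mem_centralizer_iff]
    intro z hz
    exact (hcent c hc hc1 t ht hct z hz).symm
  -- conjugating
  obtain ⟨n, hn⟩ := MulAction.exists_smul_eq d.N P S
  have hx' : n⁻¹ * x * n ∈ (P : Subgroup d.N) := by
    have h1 : x ∈ ((n • P : Sylow s d.N) : Subgroup d.N) := by rw [hn]; exact hx
    rw [Sylow.coe_subgroup_smul, Subgroup.mem_pointwise_smul_iff_inv_smul_mem] at h1
    have h2 : (MulAut.conj n)⁻¹ • x = n⁻¹ * x * n := by
      simp [MulAut.smul_def, MulAut.conj_inv_apply]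
    rwa [h2] at h1
  have hy' : n⁻¹ * y * n ∈ pCore q d.N := by
    have := (pCore_normal q d.N).conj_mem y hy n⁻¹
    rwa [inv_inv] at this
  have h2 := (Subgroup.mem_centralizer_iff.mp (hS'C (⟨_, hx', rfl⟩ : ((n⁻¹ * x * n : d.N) : 𝒢) ∈ S')))
    ((n⁻¹ * y * n : d.N) : 𝒢) ⟨_, hy', rfl⟩
  have h3 : (n⁻¹ * y * n) * (n⁻¹ * x * n) = (n⁻¹ * x * n) * (n⁻¹ * y * n) := Subtype.ext h2
  have h4 : n⁻¹ * (y * x) * n = n⁻¹ * (x * y) * n := by
    calc n⁻¹ * (y * x) * n = (n⁻¹ * y * n) * (n⁻¹ * x * n) := by group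
      _ = (n⁻¹ * x * n) * (n⁻¹ * y * n) := h3
      _ = _ := by group
  have h5 : y * x = x * y := by
    have := mul_right_cancel h4
    exact mul_left_cancel this
  exact h5.symm

end WD

end Cfsg.Agent.Lib.Ward
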