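import Mathlib
import Cfsg.Agent.Lib.Ward.Irr

/-!
# Ward's theorem
-/

set_option autoImplicit false
set_option linter.unusedSectionVars false

namespace Cfsg.Agent.Lib.Ward

open Cfsg Cfsg.Agent.Lib.Core Subgroup Cfsg.Agent.Lib.Fpf4
open scoped IsMulCommutative

universe u

namespace WD

/-- The induced representation on a minimal normal subgroup is nilpotent. -/
theorem nilpotent_mod_centralizer {𝒢 : Type u} [Group 𝒢] [Finite 𝒢] [Group.IsSolvable 𝒢]
    (d : WD 𝒢) (M : Subgroup 𝒢) [hMn : M.Normal] (hMN : M ≤ d.N) [hab : IsMulCommutative M]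
    {r : ℕ} (hr : r.Prime) (hrM : ∀ x ∈ M, x ^ r = 1)
    (hmin : ∀ K : Subgroup 𝒢, K.Normal → K ≤ M → K = ⊥ ∨ K = M) :
    ∃ k, d.N.lowerCentralSeries k ≤ d.N ⊓ centralizer (M : Set 𝒢) := by
  haveI hNn := d.hN
  haveI : Fact r.Prime := ⟨hr⟩
  let C : Subgroup 𝒢 := d.N ⊓ centralizer (M : Set 𝒢)
  haveI hCn : C.Normal := inferInstance
  have hCN : C ≤ d.N := inf_le_left
  have hCM : ∀ x ∈ C, ∀ m ∈ M, x * m * x⁻¹ = m := by
    intro x hx m hm
    have h1 := (Subgroup.mem_centralizer_iff.mp (Subgroup.mem_inf.mp hx).2) m hm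
    rw [← h1]
    group
  have hmemC : ∀ x ∈ d.N, (∀ m ∈ M, x * m * x⁻¹ = m) → x ∈ C := by
    intro x hx h
    refine Subgroup.mem_inf.mpr ⟨hx, Subgroup.mem_centralizer_iff.mpr fun m hm => ?_⟩
    have h1 := h m hm
    exact (mul_inv_eq_iff_eq_mul.mp h1).symm
  let d₂ := d.quot C hCN
  let π := QuotientGroup.mk' C
  let ρ : 𝒢 ⧸ C →* AddMonoid.End (Additive M) :=
    QuotientGroup.lift C (conjEnd M) (fun x hx => (mem_ker_conjEnd M x).2 (hCM x hx))
  have hρ : ∀ (x : 𝒢) (v : Additive M), ρ (π x) v = conjEnd M x v := fun _ _ => rfl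
  have hconj : ∀ (x : 𝒢) (v : Additive M), ((Additive.toMul (conjEnd M x v) : M) : 𝒢) =
      x * (Additive.toMul v : M).1 * x⁻¹ := fun _ _ => rfl
  have hnil : Group.IsNilpotent d₂.N := by
    refine nilpotent_of_irreducible d₂ ρ hr ?_ ?_ ?_ ?_
    · intro v
      apply Additive.toMul.injective
      apply Subtype.ext
      exact hrM _ (Additive.toMul v : M).2
    · rintro _ ⟨x, hx, rfl⟩ h
      refine (QuotientGroup.eq_one_iff _).2 (hmemC x hx fun m hm => ?_)
      have h1 := h (Additive.ofMul (⟨m, hm⟩ : M))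
      rw [hρ] at h1
      have h2 := congrArg (fun v : Additive M => ((Additive.toMul v : M) : 𝒢)) h1
      exact h2
    · intro W hW
      let K : Subgroup 𝒢 :=
        { carrier := {x | ∃ h : x ∈ M, Additive.ofMul (⟨x, h⟩ : M) ∈ W}
          one_mem' := ⟨one_mem _, W.zero_mem⟩
          mul_mem' := by
            rintro a b ⟨ha, ha'⟩ ⟨hb, hb'⟩
            exact ⟨mul_mem ha hb, W.add_mem ha' hb'⟩
          inv_mem' := by
            rintro a ⟨ha, ha'⟩
            exact ⟨inv_mem ha, W.neg_mem ha'⟩ }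
      have hKn : K.Normal := by
        refine ⟨?_⟩
        rintro a ⟨ha, ha'⟩ x
        exact ⟨hMn.conj_mem a ha x, hW (π x) _ ha'⟩
      rcases hmin K hKn (fun x hx => hx.1) with h | h
      · left
        rw [eq_bot_iff]
        intro u hu
        have h1 : (Additive.toMul u : M).1 ∈ K := ⟨(Additive.toMul u : M).2, hu⟩
        rw [h, Subgroup.mem_bot] at h1
        rw [AddSubgroup.mem_bot]
        apply Additive.toMul.injective
        exact Subtype.ext h1
      · right
        rw [eq_top_iff]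
        intro u _
        have h1 : (Additive.toMul u : M).1 ∈ K := by
          rw [h]; exact (Additive.toMul u : M).2
        exact h1.2
    · rintro _ ⟨c, hc, rfl⟩ hc1 _ ⟨x, hx, rfl⟩ hcx hrx v hv
      have hc1' : c ≠ 1 := by
        rintro rfl
        exact hc1 (map_one _)
      -- lifting to the centraliser
      have hH : IsPGroup d.p (zpowers c) := by
        haveI : Fact d.p.Prime := ⟨d.hp⟩
        refine IsPGroup.of_card (n := 1) ?_
        rw [Nat.card_zpowers, orderOf_eq_prime (d.hexp c hc) hc1', pow_one]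
      have h1 : ∀ a ∈ zpowers c, x⁻¹ * (a * x * a⁻¹) ∈ C := by
        rintro _ ⟨i, rfl⟩
        have h2 : Commute (π c) (π x) := hcx
        have h3 : π (c ^ i) = π c ^ i := map_zpow _ _ _
        have h4 : π x = π (c ^ i * x * (c ^ i)⁻¹) := by
          rw [map_mul, map_mul, map_inv, h3, (h2.zpow_left i).eq]
          group
        exact QuotientGroup.eq.mp h4
      obtain ⟨k, hk, hfx⟩ := exists_fixed_coset d.hp hH hCn (d.coprime_of_le hCN) h1
      have hx₁ : c * (x * k) = (x * k) * c := hfx c (mem_zpowers c)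
      let H' : Subgroup 𝒢 := d.N ⊓ centralizer {c}
      have hsub : ∀ {w : 𝒢}, w ∈ d.N → c * w = w * c → w ∈ H' := by
        intro w hw haw
        rw [Subgroup.mem_inf, Subgroup.mem_centralizer_singleton_iff]
        exact ⟨hw, haw.symm⟩
      have hnilH : Group.IsNilpotent H' := d.nilpotent_inf hc hc1'
      let f : H' →* 𝒢 ⧸ C := π.comp H'.subtype
      have hxr : π x ∈ f.range := by
        refine ⟨⟨x * k, hsub (mul_mem hx (hCN hk)) hx₁⟩, ?_⟩
        change π (x * k) = π x
        have hk1 : π k = 1 := (QuotientGroup.eq_one_iff k).2 hk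
        rw [map_mul, hk1, mul_one]
      have hcop : (orderOf (⟨π x, hxr⟩ : f.range)).Coprime r := by
        rw [Subgroup.orderOf_mk]
        exact ((Nat.Prime.coprime_iff_not_dvd hr).mpr hrx).symm
      obtain ⟨x₂, hx₂, hx₂r⟩ := Cfsg.Agent.Lib.Coprime.exists_lift_coprime_orderOf
        f.rangeRestrict f.rangeRestrict_surjective hcop
      have hx₂' : π x₂.1 = π x := congrArg Subtype.val hx₂
      -- the element of `M`
      set m : 𝒢 := (Additive.toMul v : M).1 with hm
      have hmM : m ∈ M := (Additive.toMul v : M).2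
      have hcm : c * m * c⁻¹ = m := by
        have h2 := congrArg (fun v : Additive M => ((Additive.toMul v : M) : 𝒢)) hv
        change ((Additive.toMul (ρ (π c) v) : M) : 𝒢) = m at h2
        rw [hρ, hconj] at h2
        exact h2
      have hcm' : c * m = m * c := mul_inv_eq_iff_eq_mul.mp hcm
      obtain ⟨e, hord⟩ : ∃ e, orderOf m = r ^ e := by
        by_cases hm1 : m = 1
        · exact ⟨0, by rw [hm1]; simp⟩
        · exact ⟨1, by rw [pow_one]; exact orderOf_eq_prime (hrM m hmM) hm1⟩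
      have hcomm := Cfsg.Agent.Lib.OddLocal.comm_in_nilpotent hnilH (hsub (hMN hmM) hcm') x₂.2 hord
        ((Nat.Prime.coprime_iff_not_dvd hr).mp (by
          rw [Subgroup.orderOf_coe]
          exact hx₂r.symm))
      rw [← hx₂', hρ]
      apply Additive.toMul.injective
      apply Subtype.ext
      rw [hconj, ← hm, ← hcomm]
      group
  obtain ⟨k, hk⟩ := (isNilpotent_iff_lowerCentralSeries d₂.N).mp hnil
  refine ⟨k, ?_⟩
  have h1 : (d.N.lowerCentralSeries k).map π = ⊥ := by
    rw [map_lowerCentralSeries]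
    exact hk
  rw [Subgroup.map_eq_bot_iff, QuotientGroup.ker_mk'] at h1
  exact h1

end WD

/-- **Ward's theorem**, internal form. -/
theorem ward_aux (n : ℕ) : ∀ (𝒢 : Type u) [Group 𝒢] [Finite 𝒢] [Group.IsSolvable 𝒢] (d : WD 𝒢),
    Nat.card d.N = n → ∃ F : Subgroup 𝒢, F.Normal ∧ F ≤ d.N ∧ Group.IsNilpotent F ∧
      ∃ k, d.N.lowerCentralSeries k ≤ F := by
  induction n using Nat.strong_induction_on with
  | _ n ih =>
  intro 𝒢 _ _ _ d hn
  haveI hNn := d.hN
  by_cases hN0 : d.N = ⊥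
  · refine ⟨⊥, inferInstance, bot_le, inferInstance, 0, ?_⟩
    simp [hN0]
  obtain ⟨M, hMn, hM0, hMN, hmin⟩ := exists_minimal_normal_le hNn hN0
  haveI := hMn
  obtain ⟨hab, r, hr, hrM⟩ := minimal_normal_elementary M hM0 hmin
  haveI := hab
  let d₁ := d.quot M hMN
  let π := QuotientGroup.mk' M
  have hlt : Nat.card d₁.N < n := by
    rw [← hn]
    by_contra hge
    push Not at hge
    have hs := MonoidHom.subgroupMap_surjective π d.N
    have hb := hs.bijective_of_nat_card_le hge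
    obtain ⟨m, hm, hm1⟩ : ∃ m ∈ M, m ≠ 1 := by
      obtain ⟨m, hm⟩ := (Subgroup.ne_bot_iff_exists_ne_one (H := M)).mp hM0
      exact ⟨m.1, m.2, fun h' => hm (Subtype.ext h')⟩
    have h1 : (π.subgroupMap d.N) ⟨m, hMN hm⟩ = (π.subgroupMap d.N) 1 := by
      apply Subtype.ext
      change π m = π 1
      rw [map_one]
      exact (QuotientGroup.eq_one_iff m).2 hm
    have h2 := hb.1 h1
    exact hm1 (congrArg Subtype.val h2)
  obtain ⟨F₁, hF₁n, hF₁N, hF₁nil, k₁, hk₁⟩ := ih _ hlt (𝒢 ⧸ M) d₁ rfl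
  let F₂ : Subgroup 𝒢 := F₁.comap π
  have hF₂n : F₂.Normal := hF₁n.comap π
  have hF₂N : F₂ ≤ d.N := by
    intro x hx
    obtain ⟨y, hy, hyx⟩ := hF₁N hx
    have h1 : y⁻¹ * x ∈ M := QuotientGroup.eq.mp hyx
    have h2 := mul_mem hy (hMN h1)
    rwa [mul_inv_cancel_left] at h2
  have hk₂ : d.N.lowerCentralSeries k₁ ≤ F₂ := by
    rw [← Subgroup.map_le_iff_le_comap, map_lowerCentralSeries]
    exact hk₁
  obtain ⟨k₃, hk₃⟩ := d.nilpotent_mod_centralizer M hMN hr hrM hmin
  let C : Subgroup 𝒢 := d.N ⊓ centralizer (M : Set 𝒢)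
  haveI hCn : C.Normal := inferInstance
  refine ⟨F₂ ⊓ C, inferInstance, inf_le_right.trans inf_le_left, ?_, max k₁ k₃, ?_⟩
  · -- nilpotent
    let f : (F₂ ⊓ C : Subgroup 𝒢) →* F₁ :=
      (π.comp (F₂ ⊓ C : Subgroup 𝒢).subtype).codRestrict F₁ (fun x => (Subgroup.mem_inf.mp x.2).1)
    refine @_root_.isNilpotent_of_ker_le_center _ _ _ _ f ?_ hF₁nil
    intro x hx
    have h1 : π x.1 = 1 := congrArg Subtype.val hx
    have h2 : x.1 ∈ M := (QuotientGroup.eq_one_iff _).1 h1
    rw [Subgroup.mem_center_iff]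
    intro y
    apply Subtype.ext
    have hy : (y : 𝒢) ∈ centralizer (M : Set 𝒢) :=
      (Subgroup.mem_inf.mp (Subgroup.mem_inf.mp y.2).2).2
    exact ((Subgroup.mem_centralizer_iff.mp hy) x.1 h2).symm
  · refine le_inf ?_ ?_
    · exact (Subgroup.lowerCentralSeries_antitone d.N (le_max_left _ _)).trans hk₂
    · exact (Subgroup.lowerCentralSeries_antitone d.N (le_max_right _ _)).trans hk₃

end Cfsg.Agent.Lib.Ward
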